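import Mathlib
import Cfsg.Agent.Lib.Helper37.HypStmt

/-!
# S5992 / DIMOBS (call by helper37)

For an isometry `x` of the standard odd form with `x ^ r = 1`, `r` an odd prime `≠ p`, and an
`x`-invariant nondegenerate subspace `W`: `c ∣ dim W - dim (W ∩ Fix x)`.

* `free_dvd`: a linear map of prime order `r` acting without fixed vectors on a subspace `R`
  of a finite space: `orderOf (q : ZMod r) ∣ dim R`.
* `even_rank`: for an isometry of odd order prime to the characteristic, `(A - 1) W` has even
  dimension (the form `(u, v) ↦ B ((A - A⁻¹) u, v)` is alternating and nondegenerate on it).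
-/

set_option autoImplicit false

universe u

open scoped Matrix

namespace Cfsg.Agent.Lib.Helper29.HypDIMOBS

open Cfsg.Agent.Lib.Helper37.HypStmt

/-- `Cfsg.quadFormOdd` as a quadratic form. -/
def oddQ (m : ℕ) (F : Type*) [Field F] : QuadraticForm F (Unit ⊕ (Fin m ⊕ Fin m) → F) :=
  (QuadraticMap.proj (R := F) (Sum.inl ()) (Sum.inl ())
    + ∑ i : Fin m, QuadraticMap.proj (R := F) (Sum.inr (Sum.inl i)) (Sum.inr (Sum.inr i))).copy
    (Cfsg.quadFormOdd m F)
    (by funext v; simp [Cfsg.quadFormOdd, pow_two])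

theorem coe_oddQ {F : Type*} [Field F] (m : ℕ) : ⇑(oddQ m F) = Cfsg.quadFormOdd m F := rfl

section general

variable {F : Type u} [Field F] {V : Type*} [AddCommGroup V] [Module F V]

/-- powers of an endomorphism fix its fixed vectors -/
theorem pow_fix (A : V →ₗ[F] V) (v : V) (h : A v = v) (k : ℕ) : (A ^ k) v = v := by
  induction k with
  | zero => simp
  | succ k ih => rw [pow_succ, Module.End.mul_apply, h, ih]

/-- powers preserve an invariant subspace -/
theorem pow_mem (A : V →ₗ[F] V) (W : Submodule F V) (hW : ∀ w ∈ W, A w ∈ W) (k : ℕ) :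
    ∀ w ∈ W, (A ^ k) w ∈ W := by
  induction k with
  | zero => intro w hw; simpa using hw
  | succ k ih => intro w hw; rw [pow_succ, Module.End.mul_apply]; exact ih _ (hW w hw)

/-- `(A - 1) w` fixed by `A` forces `(A - 1) w = 0` when `A ^ r = 1` and `r ≠ 0` in `F`. -/
theorem no_fix (A : V →ₗ[F] V) (r : ℕ) (hrF : (r : F) ≠ 0) (hA : A ^ r = 1)
    (w : V) (h : A (A w - w) = A w - w) : A w - w = 0 := by
  have h1 : (∑ i ∈ Finset.range r, A ^ i) * (A - 1) = 0 := by rw [geom_sum_mul, hA, sub_self]
  have h2 : (∑ i ∈ Finset.range r, A ^ i) (A w - w) = 0 := by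
    have := congrArg (fun f : V →ₗ[F] V => f w) h1
    simpa [Module.End.mul_apply] using this
  have h3 : (∑ i ∈ Finset.range r, A ^ i) (A w - w) = (r : F) • (A w - w) := by
    rw [LinearMap.sum_apply, Finset.sum_congr rfl (fun i _ => pow_fix A _ h i)]
    rw [Finset.sum_const, Finset.card_range, Nat.cast_smul_eq_nsmul]
  rw [h3] at h2
  exact (smul_eq_zero.mp h2).resolve_left hrF

/-- A linear map with `A ^ r = 1` (`r` prime) without fixed vectors on an invariant subspace `R`
of a finite vector space: the order of `q` modulo `r` divides `dim R`. -/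
theorem free_dvd [Fintype F] [Finite V] (A : V →ₗ[F] V) (r : ℕ) [Fact r.Prime]
    (hA : A ^ r = 1) (R : Submodule F V) (hR : ∀ v ∈ R, A v ∈ R)
    (hfix : ∀ v ∈ R, A v = v → v = 0) :
    orderOf ((Fintype.card F : ℕ) : ZMod r) ∣ Module.finrank F R := by
  classical
  let _ : Fintype R := Fintype.ofFinite R
  let f : Function.End R := fun v => ⟨A v, hR v v.2⟩
  have key : ∀ k : ℕ, ∀ v : R, ((f ^ k) v : V) = (A ^ k) (v : V) := by
    intro k
    induction k with
    | zero => intro v; rfl
    | succ k ih =>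
      intro v
      rw [pow_succ, pow_succ, Module.End.mul_apply]
      exact ih (f v)
  have hf : f ^ r ^ 1 = 1 := by
    rw [pow_one]
    funext v
    apply Subtype.ext
    rw [key, hA]
    rfl
  have h1 := Equiv.Perm.card_fixedPoints_modEq (p := r) (n := 1) hf
  have h2 : Fintype.card (Function.fixedPoints f) = 1 := by
    rw [Fintype.card_eq_one_iff]
    refine ⟨⟨0, ?_⟩, ?_⟩
    · show f 0 = 0
      apply Subtype.ext
      simp [f]
    · rintro ⟨v, hv⟩
      apply Subtype.ext
      have hv' : A (v : V) = v := congrArg Subtype.val hv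
      have := hfix v v.2 hv'
      apply Subtype.ext
      simpa using this
  rw [h2] at h1
  have h3 : Fintype.card R = Fintype.card F ^ Module.finrank F R := Module.card_eq_pow_finrank
  rw [h3] at h1
  apply orderOf_dvd_of_pow_eq_one
  have := (ZMod.natCast_eq_natCast_iff _ _ _).mpr h1
  push_cast at this
  exact this

/-- a skew-symmetric matrix with nonzero determinant has even size (`2 ≠ 0`) -/
theorem even_of_skew_gram (h2 : (2 : F) ≠ 0) {n : ℕ} (M : Matrix (Fin n) (Fin n) F)
    (hs : Mᵀ = -M) (hd : M.det ≠ 0) : Even n := by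
  have h : M.det = (-1) ^ n * M.det := by
    conv_lhs => rw [← Matrix.det_transpose, hs, Matrix.det_neg]
    simp
  by_contra hodd
  rw [Nat.not_even_iff_odd] at hodd
  rw [hodd.neg_one_pow] at h
  have h' : (2 : F) * M.det = 0 := by linear_combination h
  rcases mul_eq_zero.mp h' with h | h
  exacts [h2 h, hd h]

/-- For an isometry `A` of odd order `r` prime to the characteristic and an invariant
nondegenerate subspace `W`, `(A - 1) W` has even dimension. -/
theorem even_rank [FiniteDimensional F V] (h2 : (2 : F) ≠ 0) (Q : QuadraticForm F V)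
    (A : V →ₗ[F] V) (r : ℕ) (hodd : Odd r) (hrF : (r : F) ≠ 0)
    (hA : A ^ r = 1) (hQ : ∀ v, Q (A v) = Q v)
    (W : Submodule F V) (hW : ∀ w ∈ W, A w ∈ W)
    (hnd : ∀ w ∈ W, w ≠ 0 → ∃ x ∈ W, QuadraticMap.polar Q x w ≠ 0) :
    Even (Module.finrank F (W.map (A - 1))) := by
  classical
  obtain ⟨m, hm⟩ := hodd
  have hr1 : 1 ≤ r := by omega
  obtain ⟨A', hA'def⟩ : ∃ A' : V →ₗ[F] V, A' = A ^ (r - 1) := ⟨_, rfl⟩
  have hAA' : ∀ v, A (A' v) = v := by
    intro v
    have h : A * A ^ (r - 1) = 1 := by rw [← pow_succ', Nat.sub_add_cancel hr1, hA]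
    have := congrArg (fun f : V →ₗ[F] V => f v) h
    rw [hA'def]
    simpa [Module.End.mul_apply] using this
  have hA'A : ∀ v, A' (A v) = v := by
    intro v
    have h : A ^ (r - 1) * A = 1 := by rw [← pow_succ, Nat.sub_add_cancel hr1, hA]
    have := congrArg (fun f : V →ₗ[F] V => f v) h
    rw [hA'def]
    simpa [Module.End.mul_apply] using this
  have hB : ∀ u v, QuadraticMap.polar Q (A u) (A v) = QuadraticMap.polar Q u v := by
    intro u v
    simp only [QuadraticMap.polar, ← map_add, hQ]
  have hadj : ∀ u v, QuadraticMap.polar Q (A u) v = QuadraticMap.polar Q u (A' v) := by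
    intro u v
    rw [← hB u (A' v), hAA']
  have hadj' : ∀ u v, QuadraticMap.polar Q (A' u) v = QuadraticMap.polar Q u (A v) := by
    intro u v
    rw [← hB (A' u) v, hAA']
  have hW' : ∀ w ∈ W, A' w ∈ W := by
    rw [hA'def]; exact pow_mem A W hW (r - 1)
  have hsq : ∀ v, A (A v) = v → A v = v := by
    intro v hv
    have h1 : (A ^ 2) v = v := by rw [pow_two, Module.End.mul_apply, hv]
    have h2 : ((A ^ 2) ^ (m + 1)) v = v := pow_fix (A ^ 2) v h1 (m + 1)
    have h3 : (A ^ 2) ^ (m + 1) = A := by
      rw [← pow_mul, show 2 * (m + 1) = r + 1 by omega, pow_succ, hA, one_mul]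
    rw [h3] at h2
    exact h2
  have hRmem : ∀ u ∈ W.map (A - 1), ∃ w ∈ W, A w - w = u := by
    intro u hu
    obtain ⟨w, hw, rfl⟩ := Submodule.mem_map.mp hu
    exact ⟨w, hw, by simp⟩
  have hRW : W.map (A - 1) ≤ W := by
    intro u hu
    obtain ⟨w, hw, rfl⟩ := hRmem u hu
    exact W.sub_mem (hW w hw) hw
  have hRfix : ∀ u ∈ W.map (A - 1), A u = u → u = 0 := by
    intro u hu h
    obtain ⟨w, hw, rfl⟩ := hRmem u hu
    exact no_fix A r hrF hA w h
  have hRA' : ∀ u ∈ W.map (A - 1), A' u ∈ W.map (A - 1) := by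
    intro u hu
    obtain ⟨w, hw, rfl⟩ := hRmem u hu
    refine Submodule.mem_map.mpr ⟨A' w, hW' w hw, ?_⟩
    rw [LinearMap.sub_apply, Module.End.one_apply, hAA', map_sub, hA'A]
  -- basis of `R` and the Gram matrix of the alternating form
  obtain ⟨n, hn⟩ : ∃ n : ℕ, n = Module.finrank F (W.map (A - 1)) := ⟨_, rfl⟩
  rw [← hn]
  let b : Module.Basis (Fin n) F (W.map (A - 1)) :=
    (Module.finBasis F (W.map (A - 1))).reindex (finCongr hn.symm)
  let M : Matrix (Fin n) (Fin n) F := fun j k =>
    QuadraticMap.polar Q (A (b j : V) - A' (b j : V)) (b k : V)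
  have hMs : Mᵀ = -M := by
    ext j k
    rw [Matrix.transpose_apply, Matrix.neg_apply]
    show QuadraticMap.polar Q (A (b k : V) - A' (b k : V)) (b j : V)
      = -QuadraticMap.polar Q (A (b j : V) - A' (b j : V)) (b k : V)
    have e1 : QuadraticMap.polar Q (A (b k : V)) (b j : V)
        = QuadraticMap.polar Q (A' (b j : V)) (b k : V) := by
      rw [hadj, QuadraticMap.polar_comm]
    have e2 : QuadraticMap.polar Q (A' (b k : V)) (b j : V)
        = QuadraticMap.polar Q (A (b j : V)) (b k : V) := by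
      rw [hadj', QuadraticMap.polar_comm]
    rw [QuadraticMap.polar_sub_left, QuadraticMap.polar_sub_left, e1, e2]
    ring
  have hMd : M.det ≠ 0 := by
    intro h0
    obtain ⟨c, hc, hMc⟩ := Matrix.exists_mulVec_eq_zero_iff.mpr h0
    apply hc
    obtain ⟨u, hu⟩ : ∃ u : W.map (A - 1), u = ∑ k, c k • b k := ⟨_, rfl⟩
    have huR : (u : V) ∈ W.map (A - 1) := u.2
    have huW : (u : V) ∈ W := hRW huR
    -- the Gram condition: `ω (b j, u) = 0`
    have h1 : ∀ j, Q.polarBilin (A (b j : V) - A' (b j : V)) (u : V) = 0 := by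
      intro j
      have hj := congrFun hMc j
      rw [hu]
      simp only [Submodule.coe_sum, Submodule.coe_smul, map_sum, map_smul]
      simp only [Matrix.mulVec, dotProduct, Pi.zero_apply, M] at hj
      rw [← hj]
      refine Finset.sum_congr rfl (fun k _ => ?_)
      rw [QuadraticMap.polarBilin_apply_apply, smul_eq_mul, mul_comm]
    -- `ω (v, u) = 0` for all `v ∈ R`
    have h2' : ∀ v ∈ W.map (A - 1), QuadraticMap.polar Q (A v - A' v) (u : V) = 0 := by
      intro v hv
      let ψ : (W.map (A - 1)) →ₗ[F] F :=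
        (Q.polarBilin.flip (u : V)) ∘ₗ (A - A') ∘ₗ (W.map (A - 1)).subtype
      have hψ : ψ = 0 := by
        apply b.ext
        intro j
        simp only [ψ, LinearMap.comp_apply, Submodule.subtype_apply, LinearMap.flip_apply,
          LinearMap.sub_apply, LinearMap.zero_apply]
        exact h1 j
      have := congrArg (fun g : (W.map (A - 1)) →ₗ[F] F => g ⟨v, hv⟩) hψ
      simpa [ψ] using this
    -- move everything to the right: `z ⟂ W`
    have h3 : ∀ w ∈ W, QuadraticMap.polar Q w
        (A' (A' (u : V)) - A' (u : V) - (u : V) + A (u : V)) = 0 := by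
      intro w hw
      have hv : A w - w ∈ W.map (A - 1) :=
        Submodule.mem_map.mpr ⟨w, hw, by simp⟩
      have := h2' (A w - w) hv
      rw [map_sub, map_sub, hA'A] at this
      rw [QuadraticMap.polar_sub_left, QuadraticMap.polar_sub_left, QuadraticMap.polar_sub_left,
        hadj, hadj, hadj, hadj'] at this
      rw [QuadraticMap.polar_add_right, QuadraticMap.polar_sub_right,
        QuadraticMap.polar_sub_right]
      linear_combination this
    have hz : A' (A' (u : V)) - A' (u : V) - (u : V) + A (u : V) = 0 := by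
      by_contra hne
      have hzW : A' (A' (u : V)) - A' (u : V) - (u : V) + A (u : V) ∈ W :=
        W.add_mem (W.sub_mem (W.sub_mem (hW' _ (hW' _ huW)) (hW' _ huW)) huW) (hW _ huW)
      obtain ⟨x, hx, hx0⟩ := hnd _ hzW hne
      exact hx0 (h3 x hx)
    -- `u₁ = A' u - u` is fixed by `A ^ 2`
    have hu1R : A' (u : V) - (u : V) ∈ W.map (A - 1) :=
      (W.map (A - 1)).sub_mem (hRA' _ huR) huR
    have hu1 : A' (u : V) - (u : V) = 0 := by
      apply hRfix _ hu1R
      apply hsq
      have e1 : A' (A' (u : V) - (u : V)) = A (A' (u : V) - (u : V)) := by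
        rw [map_sub, map_sub, hAA', ← sub_eq_zero, ← hz]
        abel
      have e2 := congrArg A e1
      rw [hAA'] at e2
      exact e2.symm
    have hu0 : (u : V) = 0 := by
      apply hRfix _ huR
      have e := congrArg A hu1
      rw [map_sub, hAA', map_zero] at e
      exact (sub_eq_zero.mp e).symm
    have hu0' : ∑ k, c k • b k = 0 := by
      rw [← hu]; exact Subtype.ext hu0
    funext k
    exact Fintype.linearIndependent_iff.mp b.linearIndependent c hu0' k
  exact even_of_skew_gram h2 M hMs hMd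

end general

/-- `2 ≠ 0` in a finite field of odd order -/
theorem two_ne_zero_of_odd_card {F : Type u} [Field F] [Fintype F] (hq : Odd (Fintype.card F)) :
    (2 : F) ≠ 0 := by
  intro h
  have h1 : addOrderOf (1 : F) = 2 := by
    apply addOrderOf_eq_prime
    · rw [nsmul_eq_mul, mul_one]; exact_mod_cast h
    · exact one_ne_zero
  have h2 : addOrderOf (1 : F) ∣ Fintype.card F := addOrderOf_dvd_card
  rw [h1] at h2
  obtain ⟨k, hk⟩ := hq
  omega

/-- DIMOBS -/
theorem main : DimObs.{u} := by
  intro F _ _ p _ _ hq d r _ hr2 hrp x hx hxr W hWs hWn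
  classical
  obtain ⟨A, hAdef⟩ : ∃ A : (I d → F) →ₗ[F] (I d → F),
      A = Matrix.toLin' (x : Matrix (I d) (I d) F) := ⟨_, rfl⟩
  have hAv : ∀ v, A v = (x : Matrix (I d) (I d) F) *ᵥ v := by
    intro v; rw [hAdef, Matrix.toLin'_apply]
  have hAr : A ^ r = 1 := by
    rw [hAdef, ← Matrix.toLin'_pow, ← Units.val_pow_eq_pow_val, hxr]
    simp [Module.End.one_eq_id]
  have hQ : ∀ v, oddQ d F (A v) = oddQ d F v := by
    intro v
    rw [hAv]
    exact hx v v
  have hW : ∀ w ∈ W, A w ∈ W := by
    intro w hw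
    rw [hAdef]
    exact hWs (Submodule.mem_map_of_mem hw)
  have h2 : (2 : F) ≠ 0 := two_ne_zero_of_odd_card hq
  have hrF : (r : F) ≠ 0 := by
    rw [Ne, CharP.cast_eq_zero_iff F p r]
    intro h
    exact hrp ((Nat.prime_dvd_prime_iff_eq (Fact.out) (Fact.out)).mp h).symm
  have hrodd : Odd r := (Fact.out : r.Prime).odd_of_ne_two hr2
  have hFx : ∀ v, v ∈ Fx (x : Matrix (I d) (I d) F) ↔ A v = v := by
    intro v; rw [mem_Fx, hAv]
  -- rank-nullity
  have hrk : Module.finrank F (W.map (A - 1)) +
      Module.finrank F ↥(W ⊓ Fx (x : Matrix (I d) (I d) F)) = Module.finrank F W := by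
    have h := LinearMap.finrank_range_add_finrank_ker ((A - 1).domRestrict W)
    have e1 : LinearMap.range ((A - 1).domRestrict W) = W.map (A - 1) := by
      ext v
      simp only [LinearMap.mem_range, Submodule.mem_map, LinearMap.domRestrict_apply]
      constructor
      · rintro ⟨y, hy⟩; exact ⟨y, y.2, hy⟩
      · rintro ⟨y, hy, hyv⟩; exact ⟨⟨y, hy⟩, hyv⟩
    have e2 : Module.finrank F (LinearMap.ker ((A - 1).domRestrict W)) =
        Module.finrank F ↥(W ⊓ Fx (x : Matrix (I d) (I d) F)) := by
      rw [LinearMap.ker_domRestrict]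
      have e3 : (LinearMap.ker (A - 1)).comap W.subtype =
          (W ⊓ Fx (x : Matrix (I d) (I d) F)).comap W.subtype := by
        ext v
        simp only [Submodule.mem_comap, Submodule.subtype_apply, LinearMap.mem_ker,
          LinearMap.sub_apply, Module.End.one_apply, Submodule.mem_inf, hFx, sub_eq_zero]
        constructor
        · intro h; exact ⟨v.2, h⟩
        · intro h; exact h.2
      rw [e3]
      exact (Submodule.comapSubtypeEquivOfLe inf_le_left).finrank_eq
    rw [e1, e2] at h
    exact h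
  have hrk' : Module.finrank F W - Module.finrank F ↥(W ⊓ Fx (x : Matrix (I d) (I d) F)) =
      Module.finrank F (W.map (A - 1)) := by omega
  rw [hrk']
  have hRmem : ∀ u ∈ W.map (A - 1), ∃ w ∈ W, A w - w = u := by
    intro u hu
    obtain ⟨w, hw, rfl⟩ := Submodule.mem_map.mp hu
    exact ⟨w, hw, by simp⟩
  have h1 : orderOf ((Fintype.card F : ℕ) : ZMod r) ∣ Module.finrank F (W.map (A - 1)) := by
    apply free_dvd A r hAr
    · intro u hu
      obtain ⟨w, hw, rfl⟩ := hRmem u hu
      refine Submodule.mem_map.mpr ⟨A w, hW w hw, ?_⟩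
      simp
    · intro u hu h
      obtain ⟨w, hw, rfl⟩ := hRmem u hu
      exact no_fix A r hrF hAr w h
  have h2' : 2 ∣ Module.finrank F (W.map (A - 1)) := by
    apply Even.two_dvd
    apply even_rank h2 (oddQ d F) A r hrodd hrF hAr hQ W hW
    intro w hw hw0
    exact (hWn w hw hw0).1
  unfold cc
  split_ifs with he
  · exact h1
  · have hco : Nat.Coprime 2 (orderOf ((Fintype.card F : ℕ) : ZMod r)) := by
      rw [Nat.coprime_two_left]
      exact Nat.not_even_iff_odd.mp he
    exact hco.mul_dvd_of_dvd_of_dvd h2' h1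

end Cfsg.Agent.Lib.Helper29.HypDIMOBS
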