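import Mathlib

/-!
# A simplicity criterion from a primitive action and a Sylow subgroup of prime order

If `H` is a maximal subgroup of the finite group `G` with trivial core, `p` is a prime dividing the
index of `H` whose square does not divide the order of `G`, and `x` is an element of order `p`
whose normal closure is `G`, then `G` is simple: a non-trivial normal subgroup is transitive on the
cosets of `H`, so its order is divisible by `p`, so it contains a Sylow `p`-subgroup of `G`, hence
all of them, hence `x`.
-/

namespace Cfsg.Agent.Lib.Helper29.SimpSyl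

open scoped Pointwise

variable {G : Type*} [Group G]

/-- a normal subgroup not inside the maximal subgroup `H` has order divisible by the index of `H` -/
theorem index_dvd_card_of_sup_eq_top [Finite G] (H N : Subgroup G) [hN : N.Normal]
    (htop : H ⊔ N = ⊤) : H.index ∣ Nat.card N := by
  have h1 : N.relIndex H = N.index := by
    rw [← Subgroup.relIndex_sup_right, htop, Subgroup.relIndex_top_right]
  have h2 : Nat.card (N.subgroupOf H) * N.relIndex H = Nat.card H := by
    unfold Subgroup.relIndex
    exact Subgroup.card_mul_index _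
  have h3 := Subgroup.card_mul_index N
  have h4 := Subgroup.card_mul_index H
  have hpos : 0 < N.index := Nat.pos_of_ne_zero (Subgroup.index_ne_zero_of_finite)
  refine ⟨Nat.card (N.subgroupOf H), ?_⟩
  have : Nat.card N * N.index = H.index * Nat.card (N.subgroupOf H) * N.index := by
    rw [h3, ← h4, ← h2, h1]
    ring
  exact Nat.eq_of_mul_eq_mul_right hpos this

/-- every element of order `p` lies in a normal subgroup of order divisible by `p`, when `p ^ 2`
does not divide the order of the group -/
theorem mem_of_prime_order [Finite G] (p : ℕ) [hp : Fact p.Prime] (hp2 : ¬ p ^ 2 ∣ Nat.card G)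
    (N : Subgroup G) [hN : N.Normal] (hpN : p ∣ Nat.card N) (x : G) (hx : x ^ p = 1) : x ∈ N := by
  by_cases hx1 : x = 1
  · rw [hx1]; exact N.one_mem
  have hox : orderOf x = p := orderOf_eq_prime hx hx1
  have hpG : p ∣ Nat.card G := hpN.trans (Subgroup.card_subgroup_dvd_card N)
  have hfac : (Nat.card G).factorization p = 1 := by
    have hpos : Nat.card G ≠ 0 := Nat.card_pos.ne'
    have h1 : 1 ≤ (Nat.card G).factorization p :=
      (hp.out.dvd_iff_one_le_factorization hpos).1 hpG
    have h2 : ¬ 2 ≤ (Nat.card G).factorization p := by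
      intro h
      exact hp2 ((hp.out.pow_dvd_iff_le_factorization hpos).2 h)
    omega
  -- an element of order p in N
  obtain ⟨y, hy⟩ := exists_prime_orderOf_dvd_card' (G := N) p hpN
  have hoy : orderOf (y : G) = p := by rw [Subgroup.orderOf_coe]; exact hy
  -- two Sylow subgroups
  have hcx : Nat.card (Subgroup.zpowers x) = p ^ (Nat.card G).factorization p := by
    rw [Nat.card_zpowers, hox, hfac, pow_one]
  have hcy : Nat.card (Subgroup.zpowers (y : G)) = p ^ (Nat.card G).factorization p := by
    rw [Nat.card_zpowers, hoy, hfac, pow_one]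
  set Px : Sylow p G := Sylow.ofCard (Subgroup.zpowers x) hcx with hPx
  set Py : Sylow p G := Sylow.ofCard (Subgroup.zpowers (y : G)) hcy with hPy
  obtain ⟨g, hg⟩ := MulAction.exists_smul_eq G Py Px
  have hxP : x ∈ (g • Py : Sylow p G) := by
    rw [hg, hPx]
    exact Subgroup.mem_zpowers x
  have hxP' : x ∈ MulAut.conj g • (Py : Subgroup G) := hxP
  rw [Subgroup.mem_pointwise_smul_iff_inv_smul_mem] at hxP'
  have hmem : g⁻¹ * x * g ∈ Subgroup.zpowers (y : G) := by
    have e : (MulAut.conj g)⁻¹ • x = g⁻¹ * x * g := by
      rw [← map_inv, MulAut.smul_def, MulAut.conj_apply, inv_inv]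
    rw [e] at hxP'
    exact hxP'
  have hle : Subgroup.zpowers (y : G) ≤ N := by
    rw [Subgroup.zpowers_le]
    exact y.2
  have h1 := hN.conj_mem _ (hle hmem) g
  have e2 : g * (g⁻¹ * x * g) * g⁻¹ = x := by group
  rwa [e2] at h1

/-- **Simplicity criterion.** -/
theorem simple_of_prim_sylow [Finite G] [Nontrivial G] (H : Subgroup G) (hmax : IsCoatom H)
    (hcore : H.normalCore = ⊥) (p : ℕ) [Fact p.Prime] (hp : p ∣ H.index)
    (hp2 : ¬ p ^ 2 ∣ Nat.card G) (x : G) (hx : x ^ p = 1)
    (hcl : Subgroup.normalClosure {x} = ⊤) : IsSimpleGroup G := by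
  apply IsSimpleGroup.mk
  intro N hN
  by_cases hbot : N = ⊥
  · exact Or.inl hbot
  right
  have hNH : ¬ N ≤ H := by
    intro h
    have := (Subgroup.normal_le_normalCore (H := H) (N := N)).2 h
    rw [hcore] at this
    exact hbot (le_bot_iff.1 this)
  have htop : H ⊔ N = ⊤ := by
    apply hmax.2
    exact lt_of_le_of_ne le_sup_left (fun h => hNH (h ▸ le_sup_right))
  have hdvd : p ∣ Nat.card N := hp.trans (index_dvd_card_of_sup_eq_top H N htop)
  have hxN : x ∈ N := mem_of_prime_order p hp2 N hdvd x hx
  rw [eq_top_iff, ← hcl]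
  apply Subgroup.normalClosure_le_normal
  intro z hz
  rw [Set.mem_singleton_iff] at hz
  rw [hz]
  exact hxN

end Cfsg.Agent.Lib.Helper29.SimpSyl
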