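import Mathlib
import Cfsg.Agent.Lib.Helper27.CzStmt
import Cfsg.Agent.Lib.Helper5.SpCard

/-!
# S2136, piece GENSP (helper29): the ten matrices generate `Sp₆(2)`

A subgroup `H` containing the matrices `gmat 0`, `gmat 3`, `gmat 9` has at least
`63 * 32 * 15 * 8 * 3 * 2 = 1451520` elements: a chain of stabilisers for the action on the
vectors of `𝔽₂⁶` (base `e₁, f₁, e₂, f₂, e₃, f₃`), with explicit words in the three matrices
moving the next base vector to the required number of distinct vectors; the action of the three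
matrices on the 64 vectors is tabulated (`tab_ok`).
-/

set_option autoImplicit false

namespace Cfsg.Agent.Lib.Helper29.CzGENSP

open Matrix Cfsg.Agent.Lib.Helper27.CzStmt

/-- vectors -/
abbrev Vec : Type := Fin 3 ⊕ Fin 3 → ZMod 2

/-- matrices -/
abbrev Mat : Type := Matrix (Fin 3 ⊕ Fin 3) (Fin 3 ⊕ Fin 3) (ZMod 2)

/-- the vector with code `v` -/
def vecOf (v : ℕ) : Vec := fun i => if v.testBit (enc i) = true then 1 else 0

theorem vecOf_inj {a b : ℕ} (ha : a < 64) (hb : b < 64) (h : vecOf a = vecOf b) : a = b := by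
  apply Nat.eq_of_testBit_eq
  intro i
  by_cases hi : i < 6
  · have key : ∀ idx : Fin 3 ⊕ Fin 3, a.testBit (enc idx) = b.testBit (enc idx) := by
      intro idx
      have h1 := congrFun h idx
      simp only [vecOf] at h1
      by_cases h2 : a.testBit (enc idx) = true <;> by_cases h3 : b.testBit (enc idx) = true
      · rw [h2, h3]
      · rw [if_pos h2, if_neg h3] at h1
        exact absurd h1 (by decide)
      · rw [if_neg h2, if_pos h3] at h1
        exact absurd h1 (by decide)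
      · simp only [Bool.not_eq_true] at h2 h3
        rw [h2, h3]
    interval_cases i
    · exact key (Sum.inl 0)
    · exact key (Sum.inl 1)
    · exact key (Sum.inl 2)
    · exact key (Sum.inr 0)
    · exact key (Sum.inr 1)
    · exact key (Sum.inr 2)
  · have h6 : 64 ≤ 2 ^ i := by
      calc 64 = 2 ^ 6 := by norm_num
        _ ≤ 2 ^ i := Nat.pow_le_pow_right (by norm_num) (by omega)
    rw [Nat.testBit_eq_false_of_lt (lt_of_lt_of_le ha h6),
      Nat.testBit_eq_false_of_lt (lt_of_lt_of_le hb h6)]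

/-- the stabiliser of a vector -/
def stabV (b : Vec) : Subgroup Sp6 where
  carrier := {g | (g : Mat) *ᵥ b = b}
  mul_mem' := by
    intro g h hg hh
    show ((g * h : Sp6) : Mat) *ᵥ b = b
    have e : ((g * h : Sp6) : Mat) = (g : Mat) * (h : Mat) := rfl
    have hg' : (g : Mat) *ᵥ b = b := hg
    have hh' : (h : Mat) *ᵥ b = b := hh
    rw [e, ← Matrix.mulVec_mulVec, hh', hg']
  one_mem' := by
    show ((1 : Sp6) : Mat) *ᵥ b = b
    have e : ((1 : Sp6) : Mat) = 1 := rfl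
    rw [e, Matrix.one_mulVec]
  inv_mem' := by
    intro g hg
    show ((g⁻¹ : Sp6) : Mat) *ᵥ b = b
    have hg' : (g : Mat) *ᵥ b = b := hg
    have h1 : ((g⁻¹ : Sp6) : Mat) * (g : Mat) = 1 := by
      have e : ((g⁻¹ * g : Sp6) : Mat) = ((g⁻¹ : Sp6) : Mat) * (g : Mat) := rfl
      rw [← e, inv_mul_cancel]
      rfl
    calc ((g⁻¹ : Sp6) : Mat) *ᵥ b = ((g⁻¹ : Sp6) : Mat) *ᵥ ((g : Mat) *ᵥ b) := by rw [hg']
      _ = b := by rw [Matrix.mulVec_mulVec, h1, Matrix.one_mulVec]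

theorem mem_stabV (b : Vec) (g : Sp6) : g ∈ stabV b ↔ (g : Mat) *ᵥ b = b := Iff.rfl

/-- orbit-stabiliser lower bound -/
theorem card_ge (K : Subgroup Sp6) (b : Vec) (n : ℕ) (t : Fin n → Sp6) (ht : ∀ j, t j ∈ K)
    (hinj : ∀ j j', (t j : Mat) *ᵥ b = (t j' : Mat) *ᵥ b → j = j') :
    n * Nat.card ↥(K ⊓ stabV b) ≤ Nat.card ↥K := by
  have key : Nat.card (Fin n × ↥(K ⊓ stabV b)) ≤ Nat.card ↥K := by
    apply Nat.card_le_card_of_injective (fun p : Fin n × ↥(K ⊓ stabV b) =>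
      (⟨t p.1 * p.2.1, K.mul_mem (ht p.1) p.2.2.1⟩ : ↥K))
    rintro ⟨j, s⟩ ⟨j', s'⟩ h
    have h1 : t j * s.1 = t j' * s'.1 := congrArg Subtype.val h
    have e1 : ∀ (i : Fin n) (r : ↥(K ⊓ stabV b)),
        ((t i * r.1 : Sp6) : Mat) *ᵥ b = (t i : Mat) *ᵥ b := by
      intro i r
      have e : ((t i * r.1 : Sp6) : Mat) = (t i : Mat) * (r.1 : Mat) := rfl
      have hr : (r.1 : Mat) *ᵥ b = b := r.2.2
      rw [e, ← Matrix.mulVec_mulVec, hr]
    have h2 : (t j : Mat) *ᵥ b = (t j' : Mat) *ᵥ b := by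
      rw [← e1 j s, ← e1 j' s', h1]
    have hj := hinj j j' h2
    subst hj
    have h3 : s.1 = s'.1 := mul_left_cancel h1
    exact Prod.ext rfl (Subtype.ext h3)
  rwa [Nat.card_prod, Nat.card_fin] at key

/-! ### the data -/

/-- the action of `gmat 0`, `gmat 3`, `gmat 9` on the codes of the vectors -/
def tabs : List (List ℕ) := [[0, 2, 46, 44, 7, 5, 41, 43, 48, 50, 30, 28, 55, 53, 25, 27, 6, 4, 40, 42, 1, 3, 47, 45, 54, 52, 24, 26, 49, 51, 31, 29, 15, 13, 33, 35, 8, 10, 38, 36, 63, 61, 17, 19, 56, 58, 22, 20, 9, 11, 39, 37, 14, 12, 32, 34, 57, 59, 23, 21, 62, 60, 16, 18],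
  [0, 1, 2, 3, 6, 7, 4, 5, 8, 9, 10, 11, 14, 15, 12, 13, 52, 53, 54, 55, 50, 51, 48, 49, 60, 61, 62, 63, 58, 59, 56, 57, 34, 35, 32, 33, 36, 37, 38, 39, 42, 43, 40, 41, 44, 45, 46, 47, 22, 23, 20, 21, 16, 17, 18, 19, 30, 31, 28, 29, 24, 25, 26, 27],
  [0, 43, 17, 58, 31, 52, 14, 37, 27, 48, 10, 33, 4, 47, 21, 62, 24, 51, 9, 34, 7, 44, 22, 61, 3, 40, 18, 57, 28, 55, 13, 38, 63, 20, 46, 5, 32, 11, 49, 26, 36, 15, 53, 30, 59, 16, 42, 1, 39, 12, 54, 29, 56, 19, 41, 2, 60, 23, 45, 6, 35, 8, 50, 25]]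

/-- the three matrices used -/
def gidx (k : ℕ) : ℕ := [0, 3, 9].getD k 0

/-- the action of the `k`-th matrix on codes -/
def tab (k v : ℕ) : ℕ := (tabs.getD k []).getD v v

/-- the action of a word on codes -/
def actW (w : List ℕ) (v : ℕ) : ℕ := w.foldr tab v

/-- base vectors and words: the words of each level fix the earlier base vectors and move the
base vector of the level to distinct vectors -/
def levels : List (ℕ × List (List ℕ)) := [(1, [[], [0], [0, 1, 2, 2, 0], [0, 2, 0], [1, 0, 0, 2, 0], [1, 0, 2, 0], [0, 0, 2, 0], [2, 0, 1, 2], [0, 1, 0, 0, 0], [0, 0, 2, 2, 0], [2, 0, 2, 2, 0], [0, 1, 2, 0], [2, 2, 2], [2, 1, 0, 2, 0], [2, 1, 2], [0, 2, 2, 1, 2], [2, 0], [0, 0, 1, 2, 0, 0], [0, 2], [0, 0, 0, 0, 0], [1, 2, 2, 0], [0, 0, 0], [2, 1, 0, 2, 2], [1, 0, 0, 1, 2], [1, 0, 1, 2], [0, 0, 2, 1, 2], [0, 2, 1, 2], [0, 2, 0, 2, 2, 0], [2, 2, 2, 0], [2, 2], [0, 2, 2], [1, 2, 0, 2], [0, 2, 0, 2],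 [2, 0, 2], [1, 0, 2, 0, 2], [2, 1, 2, 0, 0], [0, 2, 2, 0], [2, 0, 2, 2], [2, 1, 0, 0, 0], [1, 2, 0, 0], [1, 2], [2, 0, 0], [2], [2, 1, 2, 2, 0], [0, 2, 1, 0, 2, 2], [0, 0], [0, 0, 0, 0], [1, 0, 0, 0], [2, 2, 0, 2, 2], [2, 2, 2, 1, 2], [2, 2, 0], [0, 1, 0, 1, 2], [1, 2, 0], [0, 1, 0, 0, 1, 2], [1, 0, 2], [1, 2, 2], [1, 0, 2, 2], [2, 0, 1, 2, 2, 0], [1, 2, 2, 2, 0], [0, 0, 1, 2], [0, 1, 2], [2, 2, 1, 2], [0, 1, 2, 0, 0]]),
  (8, [[], [0, 0, 2, 1, 2, 1, 2], [2, 0, 2, 2, 0, 0, 1, 0], [0, 0, 0, 2, 2, 2, 0, 0, 1, 0], [1, 0, 0, 1, 2, 2, 2, 2], [0, 0, 1, 0, 2, 0, 0, 0], [0, 0, 1, 2, 2, 2, 2], [2, 1, 0, 2, 0, 0, 1, 0], [0, 0, 0, 2, 2, 2, 0, 0, 0], [0, 2, 0, 0, 1, 0, 2], [2, 0, 0, 0, 0], [2, 2, 1, 2, 1, 2], [2, 0, 2, 2, 2, 0, 0, 1, 0], [0, 2, 0, 0, 0, 0, 2, 2, 0, 1, 0], [2, 0, 2, 0, 0, 1, 0], [1, 2, 0, 2, 2, 2, 0, 0, 0], [2, 1, 2, 2, 2, 2], [1, 2, 0, 0, 0, 1, 0], [1, 2, 1, 2, 2, 2, 2], [2, 0, 0, 0, 1, 0],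 [0, 2, 0, 2, 2, 1, 2, 1, 0], [0, 1, 2, 0, 2, 1, 2, 2], [2, 1, 0, 2, 0, 0, 0], [2, 1, 2, 0, 0, 0, 1, 0, 2], [1, 2, 0, 2, 0, 0, 1, 0], [2, 0, 2, 2, 2, 0, 0, 0], [0, 2, 2, 2, 0, 2, 2, 0], [0, 2, 2, 2, 0, 2, 0, 0, 0, 2], [0, 1, 2, 0, 0, 0, 1, 2], [1, 0, 2, 0, 0, 1, 0, 2], [1, 2, 0, 0, 0, 0], [2, 0, 2, 0, 0, 0]]),
  (2, [[], [1, 2, 1, 2, 0, 0, 2, 0, 2], [2, 1, 2, 0, 0, 2, 0, 2], [0, 2, 0, 2, 2, 1, 2, 0], [0, 0, 0, 0, 2, 2, 2, 1, 2, 0], [0, 2, 0, 2, 1, 2, 0, 2, 0, 2, 0], [0, 1, 2, 2, 2, 1, 2], [1, 0, 2, 0, 2, 0, 2], [0, 2, 0, 2, 0, 2], [0, 0, 1, 0, 0, 0, 0], [0, 0, 0, 0, 2, 2, 0, 2], [1, 0, 1, 2, 2, 2, 1, 2], [0, 0, 0, 1, 0, 0, 2, 1, 2, 0, 0], [2, 0, 1, 2, 0, 1, 0, 0, 0], [0, 1, 0, 0, 0, 1, 2, 0, 1, 2]]),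
  (16, [[], [0, 0, 1, 0, 0, 1, 0, 0], [2, 0, 2, 2, 0, 1, 2, 2, 0, 2], [2, 1, 2, 0, 0, 2, 1, 2, 0, 2, 0, 2, 0], [2, 2, 1, 0, 2, 0, 2, 1, 2, 2, 0, 0, 1, 0], [0, 2, 0, 2, 2, 2, 2, 0, 0, 1], [1], [1, 0, 0, 1, 0, 0, 1, 0, 0]]),
  (4, [[], [0, 2, 2, 2, 2, 0, 2, 0, 1, 0, 2, 0, 0], [2, 1, 0, 1, 0, 2, 2, 2, 1, 2, 0, 2, 0, 1]]),
  (32, [[], [2, 2, 2, 1, 0, 0, 1, 0, 0, 1, 0, 0, 2, 2]])]

set_option maxRecDepth 100000 in
theorem tab_ok : ∀ k : Fin 3, ∀ v : Fin 64, ∀ i : Fin 3 ⊕ Fin 3,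
    (gmat (gidx k)).mulVec (vecOf v) i = vecOf (tab k v) i := by
  decide

set_option maxRecDepth 100000 in
theorem tab_lt : ∀ k : Fin 3, ∀ v : Fin 64, tab k v < 64 := by
  decide

theorem tab_ge (k v : ℕ) (hk : 3 ≤ k) : tab k v = v := by
  unfold tab
  have h1 : tabs.getD k [] = [] := List.getD_eq_default _ _ (by simpa [tabs] using hk)
  rw [h1]
  rfl

theorem gidx_lt (k : ℕ) (hk : k < 3) : gidx k < 10 := by
  interval_cases k <;> decide

/-- one level of the check -/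
def levelOK (prev : List ℕ) (b : ℕ) (ws : List (List ℕ)) : Bool :=
  ws.all (fun w => prev.all (fun c => actW w c == c)) &&
    decide ((ws.map (fun w => actW w b)).Nodup)

/-- the whole check -/
def chkAll : List ℕ → List (ℕ × List (List ℕ)) → Bool
  | _, [] => true
  | prev, (b, ws) :: rest =>
    decide (b < 64) && prev.all (fun c => decide (c < 64)) && levelOK prev b ws &&
      chkAll (b :: prev) rest

set_option maxRecDepth 100000 in
theorem chk_ok : chkAll [] levels = true := by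
  decide

set_option maxRecDepth 100000 in
theorem prod_levels : (levels.map (fun l => l.2.length)).prod = 1451520 := by
  decide

/-! ### the chain -/

section

variable (H : Subgroup Sp6) (hH : ∀ m < 10, ∃ h ∈ H, (h : Mat) = gmat m)

/-- elements of `H` with the three matrices -/
noncomputable def gen (k : ℕ) : Sp6 :=
  if h : k < 3 then Classical.choose (hH (gidx k) (gidx_lt k h)) else 1

theorem gen_mem (k : ℕ) : gen H hH k ∈ H := by
  unfold gen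
  split_ifs with h
  · exact (Classical.choose_spec (hH (gidx k) (gidx_lt k h))).1
  · exact H.one_mem

theorem gen_coe (k : ℕ) (hk : k < 3) : (gen H hH k : Mat) = gmat (gidx k) := by
  unfold gen
  rw [dif_pos hk]
  exact (Classical.choose_spec (hH (gidx k) (gidx_lt k hk))).2

theorem gen_ge (k : ℕ) (hk : ¬ k < 3) : gen H hH k = 1 := by
  unfold gen
  rw [dif_neg hk]

/-- the element of a word -/
noncomputable def prodW (w : List ℕ) : Sp6 := (w.map (gen H hH)).prod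

theorem prodW_mem (w : List ℕ) : prodW H hH w ∈ H := by
  unfold prodW
  apply Subgroup.list_prod_mem
  intro x hx
  obtain ⟨k, _, rfl⟩ := List.mem_map.1 hx
  exact gen_mem H hH k

theorem act_prodW (w : List ℕ) : ∀ v : ℕ, v < 64 →
    (prodW H hH w : Mat) *ᵥ vecOf v = vecOf (actW w v) ∧ actW w v < 64 := by
  induction w with
  | nil =>
    intro v hv
    have e : ((prodW H hH [] : Sp6) : Mat) = 1 := rfl
    rw [e, Matrix.one_mulVec]
    exact ⟨rfl, hv⟩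
  | cons k w ih =>
    intro v hv
    obtain ⟨h1, h2⟩ := ih v hv
    have e : ((prodW H hH (k :: w) : Sp6) : Mat) = (gen H hH k : Mat) * (prodW H hH w : Mat) := by
      unfold prodW
      rw [List.map_cons, List.prod_cons]
      rfl
    have a : actW (k :: w) v = tab k (actW w v) := rfl
    rw [e, a, ← Matrix.mulVec_mulVec, h1]
    by_cases hk : k < 3
    · rw [gen_coe H hH k hk]
      constructor
      · funext i
        exact tab_ok ⟨k, hk⟩ ⟨actW w v, h2⟩ i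
      · exact tab_lt ⟨k, hk⟩ ⟨actW w v, h2⟩
    · rw [gen_ge H hH k hk, tab_ge k _ (by omega)]
      have e1 : ((1 : Sp6) : Mat) = 1 := rfl
      rw [e1, Matrix.one_mulVec]
      exact ⟨rfl, h2⟩

/-- the chain of stabilisers -/
def Kc : List ℕ → Subgroup Sp6
  | [] => H
  | c :: cs => Kc cs ⊓ stabV (vecOf c)

theorem mem_Kc (prev : List ℕ) (g : Sp6) :
    g ∈ Kc H prev ↔ g ∈ H ∧ ∀ c ∈ prev, (g : Mat) *ᵥ vecOf c = vecOf c := by
  induction prev with
  | nil =>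
    constructor
    · intro h
      exact ⟨h, fun c hc => absurd hc List.not_mem_nil⟩
    · intro h
      exact h.1
  | cons c cs ih =>
    show g ∈ Kc H cs ⊓ stabV (vecOf c) ↔ _
    rw [Subgroup.mem_inf, ih, mem_stabV]
    constructor
    · rintro ⟨⟨h1, h2⟩, h3⟩
      refine ⟨h1, fun x hx => ?_⟩
      rcases List.mem_cons.1 hx with rfl | hx
      · exact h3
      · exact h2 x hx
    · rintro ⟨h1, h2⟩
      exact ⟨⟨h1, fun x hx => h2 x (List.mem_cons_of_mem _ hx)⟩, h2 c List.mem_cons_self⟩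

theorem chain (hH' : ∀ m < 10, ∃ h ∈ H, (h : Mat) = gmat m) :
    ∀ (lv : List (ℕ × List (List ℕ))) (prev : List ℕ), chkAll prev lv = true →
    (lv.map (fun l => l.2.length)).prod ≤ Nat.card ↥(Kc H prev)
  | [], prev, _ => by
    rw [List.map_nil, List.prod_nil]
    exact Nat.card_pos
  | (b, ws) :: rest, prev, h => by
    simp only [chkAll, Bool.and_eq_true, decide_eq_true_eq] at h
    obtain ⟨⟨⟨hb, hprev⟩, hlev⟩, hrest⟩ := h
    have hH := hH'
    have ih := chain hH' rest (b :: prev) hrest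
    simp only [levelOK, Bool.and_eq_true, decide_eq_true_eq, List.all_eq_true, beq_iff_eq] at hlev
    obtain ⟨hfix, hnd⟩ := hlev
    rw [List.all_eq_true] at hprev
    have hcard := card_ge (Kc H prev) (vecOf b) ws.length (fun j => prodW H hH (ws[j])) (by
        intro j
        rw [mem_Kc]
        refine ⟨prodW_mem H hH _, fun c hc => ?_⟩
        have hc64 : c < 64 := by
          have := hprev c hc
          simpa using this
        rw [(act_prodW H hH (ws[j]) c hc64).1, hfix (ws[j]) (List.getElem_mem _) c hc]) (by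
        intro j j' hjj
        rw [(act_prodW H hH (ws[j]) b hb).1, (act_prodW H hH (ws[j']) b hb).1] at hjj
        have h1 := vecOf_inj (act_prodW H hH (ws[j]) b hb).2 (act_prodW H hH (ws[j']) b hb).2 hjj
        have h2 : (ws.map (fun w => actW w b))[(j : ℕ)]'(by simp) =
            (ws.map (fun w => actW w b))[(j' : ℕ)]'(by simp) := by
          rw [List.getElem_map, List.getElem_map]
          exact h1
        have h3 := (List.Nodup.getElem_inj_iff hnd).1 h2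
        exact Fin.ext h3)
    rw [List.map_cons, List.prod_cons]
    calc ws.length * (rest.map (fun l => l.2.length)).prod
        ≤ ws.length * Nat.card ↥(Kc H (b :: prev)) := Nat.mul_le_mul_left _ ih
      _ ≤ Nat.card ↥(Kc H prev) := hcard

end

theorem card_Sp6 : Nat.card Sp6 = 1451520 := by
  have h := Cfsg.Agent.Lib.Helper5.SpCard.card_symplectic (F := ZMod 2) 3
  rw [ZMod.card] at h
  rw [h]
  decide

/-- **[GENSP]** -/
theorem main : Cfsg.Agent.Lib.Helper27.CzStmt.GenSp := by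
  intro H hH
  have h1 := chain H hH levels [] chk_ok
  rw [prod_levels] at h1
  have h2 : Nat.card ↥(Kc H []) = Nat.card ↥H := rfl
  rw [h2] at h1
  apply Subgroup.eq_top_of_le_card
  rw [card_Sp6]
  exact h1

end Cfsg.Agent.Lib.Helper29.CzGENSP
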