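import Mathlib
import Cfsg.Agent.Lib.Helper28.DxStmt

/-!
# S1615, piece NUMTH (helper29): the arithmetic
-/

set_option autoImplicit false

namespace Cfsg.Agent.Lib.Helper29.DxNUMTH

/-- `3 ^ i * m` with `m ≡ 2 (mod 3)` is not a square -/
theorem no_sq : ∀ (i s m : ℕ), m % 3 = 2 → s * s ≠ 3 ^ i * m := by
  intro i
  induction i using Nat.strong_induction_on with
  | _ i ih =>
    intro s m hm h
    have hs9 : (s * s) % 3 = ((s % 3) * (s % 3)) % 3 := Nat.mul_mod s s 3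
    have hlt : s % 3 < 3 := Nat.mod_lt _ (by norm_num)
    rcases Nat.lt_or_ge i 2 with hi | hi
    · interval_cases i
      · rw [pow_zero, one_mul] at h
        rw [h] at hs9
        obtain ⟨r, hr⟩ : ∃ r, r = s % 3 := ⟨_, rfl⟩
        rw [← hr] at hs9 hlt
        interval_cases r <;> omega
      · rw [pow_one] at h
        have h3 : s % 3 = 0 := by
          obtain ⟨r, hr⟩ : ∃ r, r = s % 3 := ⟨_, rfl⟩
          rw [← hr] at hs9 hlt ⊢
          interval_cases r <;> omega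
        obtain ⟨t, rfl⟩ : 3 ∣ s := Nat.dvd_of_mod_eq_zero h3
        have : 3 * (t * t) = m := by nlinarith
        omega
    · have h3 : s % 3 = 0 := by
        have h9 : (s * s) % 3 = 0 := by
          rw [h]
          obtain ⟨d, rfl⟩ : ∃ d, i = d + 1 := ⟨i - 1, by omega⟩
          rw [pow_succ, mul_comm (3 ^ d) 3, mul_assoc]
          exact Nat.mul_mod_right _ _
        obtain ⟨r, hr⟩ : ∃ r, r = s % 3 := ⟨_, rfl⟩
        rw [← hr] at hs9 hlt ⊢
        interval_cases r <;> omega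
      obtain ⟨t, rfl⟩ : 3 ∣ s := Nat.dvd_of_mod_eq_zero h3
      obtain ⟨d, rfl⟩ : ∃ d, i = d + 2 := ⟨i - 2, by omega⟩
      apply ih d (by omega) t m hm
      have e : 3 ^ (d + 2) = 9 * 3 ^ d := by rw [pow_add]; ring
      rw [e] at h
      nlinarith

theorem main_aux : ∀ i j s : ℕ, i ≤ j → 1 ≤ j →
    s * s + 4 * 3 ^ i = 3 ^ i * 3 ^ i + 4 * 3 ^ j → (i = 0 ∧ j = 1) ∨ i = j := by
  intro i j s hij hj h
  rcases Nat.eq_or_lt_of_le hij with heq | hlt
  · exact Or.inr heq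
  · left
    rcases Nat.eq_zero_or_pos i with hi0 | hipos
    · subst hi0
      refine ⟨rfl, ?_⟩
      by_contra hj1
      obtain ⟨d, rfl⟩ : ∃ d, j = d + 2 := ⟨j - 2, by omega⟩
      have e : 3 ^ (d + 2) = 9 * 3 ^ d := by rw [pow_add]; ring
      rw [e] at h
      simp only [pow_zero, mul_one] at h
      have h9 : (s * s) % 9 = 6 := by omega
      have hs9 : (s * s) % 9 = ((s % 9) * (s % 9)) % 9 := Nat.mul_mod s s 9
      have hlt9 : s % 9 < 9 := Nat.mod_lt _ (by norm_num)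
      obtain ⟨r, hr⟩ : ∃ r, r = s % 9 := ⟨_, rfl⟩
      rw [← hr] at hs9 hlt9
      interval_cases r <;> omega
    · exfalso
      obtain ⟨d, rfl⟩ : ∃ d, j = i + (d + 1) := ⟨j - i - 1, by omega⟩
      obtain ⟨c, rfl⟩ : ∃ c, i = c + 1 := ⟨i - 1, by omega⟩
      -- 3^i + 4 * 3^(d+1) = 3 * k with k ≥ 5
      set k := 3 ^ c + 4 * 3 ^ d with hk
      have hk5 : 5 ≤ k := by
        have h1 : 1 ≤ 3 ^ c := Nat.one_le_pow _ _ (by norm_num)
        have h2 : 1 ≤ 3 ^ d := Nat.one_le_pow _ _ (by norm_num)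
        omega
      have e1 : 3 ^ (c + 1) = 3 * 3 ^ c := by rw [pow_succ]; ring
      have e2 : 3 ^ (c + 1 + (d + 1)) = 3 ^ (c + 1) * (3 * 3 ^ d) := by rw [pow_add, pow_succ 3 d]; ring
      have hm : (3 * (k - 2) + 2) % 3 = 2 := by omega
      refine no_sq (c + 1) s (3 * (k - 2) + 2) hm ?_
      have e3 : 3 * (k - 2) + 2 + 4 = 3 ^ (c + 1) + 4 * (3 * 3 ^ d) := by
        rw [e1]; omega
      have e4 : 3 ^ (c + 1) * (3 * (k - 2) + 2) + 4 * 3 ^ (c + 1) =
          3 ^ (c + 1) * 3 ^ (c + 1) + 4 * 3 ^ (c + 1 + (d + 1)) := by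
        rw [e2]
        calc 3 ^ (c + 1) * (3 * (k - 2) + 2) + 4 * 3 ^ (c + 1)
            = 3 ^ (c + 1) * (3 * (k - 2) + 2 + 4) := by ring
          _ = 3 ^ (c + 1) * (3 ^ (c + 1) + 4 * (3 * 3 ^ d)) := by rw [e3]
          _ = _ := by ring
      omega

/-- **[NUMTH]** -/
theorem main : Cfsg.Agent.Lib.Helper28.DxStmt.NumTh := main_aux

end Cfsg.Agent.Lib.Helper29.DxNUMTH
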