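import Mathlib
import Cfsg.Agent.Lib.Helper28.DxStmt

/-!
# S1615, piece POW3 (helper29): an orbit of an odd-order group under an involution with
cubic products has 3-power size
-/

set_option autoImplicit false

namespace Cfsg.Agent.Lib.Helper29.DxPOW3

universe u

open scoped Pointwise

/-- for a prime `p ≠ 3`, the centraliser of `y` in `K` contains a Sylow `p`-subgroup of `K` -/
theorem core {G : Type u} [Group G] [Finite G] (K : Subgroup G) (y : G)
    (hodd : Odd (Nat.card K)) (hy : y * y = 1) (hn : ∀ l ∈ K, y * l * y⁻¹ ∈ K)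
    (h3 : ∀ l ∈ K, ((l * y * l⁻¹) * y) ^ 3 = 1) (p : ℕ) (hp : p.Prime) (hp3 : p ≠ 3) :
    ¬ p ∣ ((Subgroup.centralizer {y}).subgroupOf K).index := by
  haveI : Fact p.Prime := ⟨hp⟩
  have hyinv : y⁻¹ = y := inv_eq_of_mul_eq_one_left hy
  let σ : ↥K ≃* ↥K :=
    { toFun := fun l => ⟨y * l * y⁻¹, hn l l.2⟩
      invFun := fun l => ⟨y * l * y⁻¹, hn l l.2⟩
      left_inv := by
        intro l
        apply Subtype.ext
        show y * (y * (l : G) * y⁻¹) * y⁻¹ = l
        calc y * (y * (l : G) * y⁻¹) * y⁻¹ = (y * y) * (l : G) * (y * y)⁻¹ := by group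
          _ = l := by rw [hy, one_mul, inv_one, mul_one]
      right_inv := by
        intro l
        apply Subtype.ext
        show y * (y * (l : G) * y⁻¹) * y⁻¹ = l
        calc y * (y * (l : G) * y⁻¹) * y⁻¹ = (y * y) * (l : G) * (y * y)⁻¹ := by group
          _ = l := by rw [hy, one_mul, inv_one, mul_one]
      map_mul' := by
        intro a b
        apply Subtype.ext
        show y * ((a : G) * (b : G)) * y⁻¹ = (y * (a : G) * y⁻¹) * (y * (b : G) * y⁻¹)
        group }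
  have hσ : ∀ l : ↥K, ((σ l : ↥K) : G) = y * (l : G) * y⁻¹ := fun l => rfl
  have hσ2 : σ * σ = 1 := by
    ext l
    show ((σ (σ l) : ↥K) : G) = l
    rw [hσ, hσ]
    calc y * (y * (l : G) * y⁻¹) * y⁻¹ = (y * y) * (l : G) * (y * y)⁻¹ := by group
      _ = l := by rw [hy, one_mul, inv_one, mul_one]
  have hZ : IsPGroup 2 (Subgroup.zpowers σ) := by
    intro g
    refine ⟨1, ?_⟩
    obtain ⟨n, hn'⟩ := Subgroup.mem_zpowers_iff.1 g.2
    apply Subtype.ext
    show ((g ^ 2 ^ 1 : ↥(Subgroup.zpowers σ)) : MulAut ↥K) = 1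
    rw [pow_one, Subgroup.coe_pow, ← hn', pow_two, ← zpow_add, ← two_mul, zpow_mul, zpow_two, hσ2,
      one_zpow]
  have hcard : ¬ 2 ∣ Nat.card (Sylow p ↥K) := by
    obtain ⟨P0⟩ : Nonempty (Sylow p ↥K) := inferInstance
    have h1 : Nat.card (Sylow p ↥K) ∣ Nat.card ↥K :=
      (Sylow.card_dvd_index P0).trans (Subgroup.index_dvd_card _)
    intro h2
    exact (Nat.not_even_iff_odd.2 hodd) (even_iff_two_dvd.2 (h2.trans h1))
  obtain ⟨P, hP⟩ := hZ.nonempty_fixed_point_of_prime_not_dvd_card (Sylow p ↥K) hcard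
  have hσP : σ • P = P := hP ⟨σ, Subgroup.mem_zpowers σ⟩
  have hmem : ∀ g ∈ (P : Subgroup ↥K), σ g ∈ (P : Subgroup ↥K) := by
    intro g hg
    have h1 : σ • g ∈ σ • (P : Subgroup ↥K) := Subgroup.smul_mem_pointwise_smul g σ _ hg
    rw [← Sylow.pointwise_smul_def, hσP] at h1
    exact h1
  have hPC : (P : Subgroup ↥K) ≤ (Subgroup.centralizer {y}).subgroupOf K := by
    intro g hg
    have hx : g * (σ g)⁻¹ ∈ (P : Subgroup ↥K) := mul_mem hg (inv_mem (hmem g hg))
    have hx3 : (g * (σ g)⁻¹) ^ 3 = 1 := by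
      apply Subtype.ext
      have h4 := h3 g g.2
      have e : (((g * (σ g)⁻¹) ^ 3 : ↥K) : G) = ((g : G) * (y * (g : G) * y⁻¹)⁻¹) ^ 3 := rfl
      rw [e]
      have e2 : (g : G) * (y * (g : G) * y⁻¹)⁻¹ = (g : G) * y * (g : G)⁻¹ * y := by
        rw [mul_inv_rev, mul_inv_rev, inv_inv, hyinv]
        group
      rw [e2]
      exact h4
    have hx1 : g * (σ g)⁻¹ = 1 := by
      obtain ⟨k, hk⟩ := P.isPGroup' ⟨_, hx⟩
      have hk' : (g * (σ g)⁻¹) ^ (p ^ k) = 1 := by
        have := congrArg Subtype.val hk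
        simpa using this
      have hcop : Nat.Coprime (p ^ k) 3 :=
        Nat.Coprime.pow_left k ((Nat.coprime_primes hp Nat.prime_three).2 hp3)
      have h5 := pow_gcd_eq_one.2 ⟨hk', hx3⟩
      rw [hcop.gcd_eq_one, pow_one] at h5
      exact h5
    have hfix : σ g = g := by
      rw [mul_inv_eq_one] at hx1
      exact hx1.symm
    rw [Subgroup.mem_subgroupOf, Subgroup.mem_centralizer_iff]
    intro h hh
    rw [Set.mem_singleton_iff] at hh
    subst hh
    have h6 : h * (g : G) * h⁻¹ = g := congrArg Subtype.val hfix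
    calc h * (g : G) = (h * (g : G) * h⁻¹) * h := by group
      _ = (g : G) * h := by rw [h6]
  intro hdvd
  exact P.not_dvd_index (hdvd.trans (Subgroup.index_dvd_of_le hPC))

/-- the conjugacy class of `y` under `K` has as many members as the index of the centraliser -/
theorem ncard_eq_index {G : Type u} [Group G] [Finite G] (K : Subgroup G) (y : G) (E : Set G)
    (hE1 : ∀ u ∈ E, ∃ l ∈ K, u = l * y * l⁻¹) (hE2 : ∀ l ∈ K, l * y * l⁻¹ ∈ E) :
    E.ncard = ((Subgroup.centralizer {y}).subgroupOf K).index := by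
  rw [← Nat.card_coe_set_eq, Subgroup.index]
  symm
  let φ : (↥K ⧸ (Subgroup.centralizer {y}).subgroupOf K) → ↥E := fun q =>
    Quotient.liftOn' q (fun l : ↥K => (⟨(l : G) * y * (l : G)⁻¹, hE2 l l.2⟩ : ↥E)) (by
      intro a b hab
      rw [QuotientGroup.leftRel_apply, Subgroup.mem_subgroupOf, Subgroup.mem_centralizer_iff] at hab
      have h1 := hab y rfl
      apply Subtype.ext
      show (a : G) * y * (a : G)⁻¹ = (b : G) * y * (b : G)⁻¹
      have h2 : y * ((a : G)⁻¹ * (b : G)) = ((a : G)⁻¹ * (b : G)) * y := h1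
      calc (a : G) * y * (a : G)⁻¹ = (a : G) * (y * ((a : G)⁻¹ * (b : G))) * (b : G)⁻¹ := by group
        _ = (a : G) * (((a : G)⁻¹ * (b : G)) * y) * (b : G)⁻¹ := by rw [h2]
        _ = (b : G) * y * (b : G)⁻¹ := by group)
  apply Nat.card_congr (Equiv.ofBijective φ ⟨?_, ?_⟩)
  · intro q1 q2
    refine Quotient.inductionOn₂' q1 q2 ?_
    intro a b hab
    have h1 : (a : G) * y * (a : G)⁻¹ = (b : G) * y * (b : G)⁻¹ := congrArg Subtype.val hab
    apply Quotient.sound'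
    rw [QuotientGroup.leftRel_apply, Subgroup.mem_subgroupOf, Subgroup.mem_centralizer_iff]
    intro h hh
    rw [Set.mem_singleton_iff] at hh
    subst hh
    show h * ((a : G)⁻¹ * (b : G)) = ((a : G)⁻¹ * (b : G)) * h
    calc h * ((a : G)⁻¹ * (b : G)) = (a : G)⁻¹ * ((a : G) * h * (a : G)⁻¹) * (b : G) := by group
      _ = (a : G)⁻¹ * ((b : G) * h * (b : G)⁻¹) * (b : G) := by rw [h1]
      _ = ((a : G)⁻¹ * (b : G)) * h := by group
  · rintro ⟨u, hu⟩
    obtain ⟨l, hl, rfl⟩ := hE1 u hu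
    exact ⟨Quotient.mk'' ⟨l, hl⟩, rfl⟩

theorem main_aux {G : Type u} [Group G] [Finite G] (K : Subgroup G) (y : G) (E : Set G)
    (hodd : Odd (Nat.card K)) (hy : y * y = 1) (hn : ∀ l ∈ K, y * l * y⁻¹ ∈ K)
    (hE1 : ∀ u ∈ E, ∃ l ∈ K, u = l * y * l⁻¹) (hE2 : ∀ l ∈ K, l * y * l⁻¹ ∈ E)
    (h3 : ∀ u ∈ E, (u * y) ^ 3 = 1) : ∃ j : ℕ, E.ncard = 3 ^ j := by
  rw [ncard_eq_index K y E hE1 hE2]
  have hidx : ((Subgroup.centralizer {y}).subgroupOf K).index ≠ 0 :=
    Subgroup.index_ne_zero_of_finite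
  refine ⟨_, Nat.eq_prime_pow_of_unique_prime_dvd hidx ?_⟩
  intro q hq hqd
  by_contra hne
  exact core K y hodd hy hn (fun l hl => h3 _ (hE2 l hl)) q hq hne hqd

/-- **[POW3]** -/
theorem main : Cfsg.Agent.Lib.Helper28.DxStmt.Pow3.{u} := by
  intro G _ _ K y E hodd hy hn hE1 hE2 h3
  exact main_aux K y E hodd hy hn hE1 hE2 h3

end Cfsg.Agent.Lib.Helper29.DxPOW3
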