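import Cfsg.Agent.Lib.Helper29.OrdQuot

/-!
# Perfectness of a Coxeter-presented group through its abelianisation

In an abelian quotient the two ends of an odd edge have the same image (`ab_edge`); if all
generators have the same image and some relator has odd length, the abelianisation is trivial
(`commutator_eq_top_of_ab`).
-/

namespace Cfsg.Agent.Lib.Helper29.OrdAb

open Cfsg.Agent.Lib.Helper29 Cfsg.Agent.Lib.Helper29.TcCox Cfsg.Agent.Lib.Helper29.OrdQuot Cfsg.Spor

variable {α : Type} [DecidableEq α]
variable {edges : List (α × ℕ × α)} {extra : List (FreeGroup α)}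

local notation "LW" => lw edges extra

/-- in an abelian quotient, the two ends of an odd edge have the same image -/
theorem ab_edge {A : Type*} [CommGroup A] (π : CoxPresented α edges extra →* A) {x y : α}
    (hx : x ∈ coxNodes edges) (hy : y ∈ coxNodes edges) (k : ℕ)
    (hlab : coxLabel edges x y = 2 * k + 1) : π (LW [(x, true)]) = π (LW [(y, true)]) := by
  have h1 := pair_pow (extra := extra) hx hy
  rw [hlab] at h1
  have h2 := congrArg π h1
  rw [map_pow, map_mul, map_one, mul_pow] at h2
  have hX : π (LW [(x, true)]) * π (LW [(x, true)]) = 1 := by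
    rw [← map_mul, node_sq edges extra hx, map_one]
  have hY : π (LW [(y, true)]) * π (LW [(y, true)]) = 1 := by
    rw [← map_mul, node_sq edges extra hy, map_one]
  have eX : π (LW [(x, true)]) ^ (2 * k + 1) = π (LW [(x, true)]) := by
    rw [pow_succ, pow_mul, pow_two, hX, one_pow, one_mul]
  have eY : π (LW [(y, true)]) ^ (2 * k + 1) = π (LW [(y, true)]) := by
    rw [pow_succ, pow_mul, pow_two, hY, one_pow, one_mul]
  rw [eX, eY] at h2
  exact (mul_eq_one_iff_eq_inv.1 h2).trans (inv_eq_of_mul_eq_one_left hY)

/-- if all generators have the same image `z`, a word is sent to a power of `z` -/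
theorem ab_word {A : Type*} [CommGroup A] (π : CoxPresented α edges extra →* A) (z : A)
    (hz : z * z = 1) (h : ∀ x : α, π (LW [(x, true)]) = z) (w : List (α × Bool)) :
    π (LW w) = z ^ w.length := by
  rw [hom_lw]
  induction w with
  | nil => rw [List.map_nil, List.prod_nil, List.length_nil, pow_zero]
  | cons l w ih =>
    rw [List.map_cons, List.prod_cons, ih, List.length_cons, pow_succ']
    congr 1
    rw [h]
    cases l.2
    · exact inv_eq_of_mul_eq_one_left hz
    · rfl

/-- the group is perfect if all generators agree in the abelianisation and a relator has odd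
length -/
theorem commutator_eq_top_of_ab (x0 : α) (hx0 : x0 ∈ coxNodes edges)
    (hall : ∀ x : α, (Abelianization.of (LW [(x, true)]) :
      Abelianization (CoxPresented α edges extra)) = Abelianization.of (LW [(x0, true)]))
    (w : List (α × Bool)) (k : ℕ) (hlen : w.length = 2 * k + 1) (hw : LW w = 1) :
    commutator (CoxPresented α edges extra) = ⊤ := by
  have hz : (Abelianization.of (LW [(x0, true)]) : Abelianization (CoxPresented α edges extra)) *
      Abelianization.of (LW [(x0, true)]) = 1 := by
    rw [← map_mul, node_sq edges extra hx0, map_one]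
  have h1 := ab_word Abelianization.of _ hz hall w
  rw [hw, map_one, hlen, pow_succ, pow_mul, pow_two, hz, one_pow, one_mul] at h1
  rw [← Abelianization.ker_of]
  apply eq_top_of_gens
  intro x
  rw [MonoidHom.mem_ker, hall x]
  exact h1.symm

end Cfsg.Agent.Lib.Helper29.OrdAb
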