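import Cfsg.Agent.Lib.Helper29.OrdSub
import Cfsg.Agent.Lib.Helper29.OrdQuot
import Cfsg.Agent.Lib.Helper29.OrdAb
import Cfsg.Agent.Lib.Helper29.FiA.Bsgs
import Cfsg.Agent.Lib.Helper29.FiA.Iwa
import Cfsg.Agent.Lib.Helper29.FiB.Ok
import Cfsg.Agent.Lib.Helper29.FiC.Ok
import Cfsg.Agent.Lib.Helper29.FiD.Ok
import Cfsg.Agent.Lib.Helper29.FiE.Ok
import Cfsg.Agent.Lib.Helper29.FiF.Ok
import Cfsg.Agent.S1685

/-!
# The presented Fischer group Fi22 has order 64561751654400 and is simple

* order at most `14080 * 3159 * 288 * 42 * 20 * 3 * 2`: coset enumerations along the chain of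
  sub-diagrams `a…i ⊃ b…i ⊃ b…h ⊃ b…g ⊃ b…e ⊃ b,c ⊃ b`;
* order at least that: a stabiliser chain in the permutation representation on the 3510 cosets of
  `⟨a,c,d,e,f,g,h,i,(abcdeh)^5⟩` (the centraliser of the 3-transposition `a`);
* simplicity: Iwasawa's criterion for this action, with `⟨a⟩` normal in the stabiliser; the group
  is perfect because its abelianisation is generated by one involution and the relator
  `(abcdefh)^9` has odd length.
-/

set_option autoImplicit false

namespace Cfsg.Agent.Lib.Helper29.FiMain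

open Cfsg.Agent.Lib.Helper29 Cfsg.Agent.Lib.Helper29.TcCox Cfsg.Agent.Lib.Helper29.OrdCox
  Cfsg.Agent.Lib.Helper29.OrdSub Cfsg.Agent.Lib.Helper29.OrdBasic Cfsg.Agent.Lib.Helper29.OrdPerm
  Cfsg.Agent.Lib.Helper29.OrdQuot Cfsg.Agent.Lib.Helper29.OrdAb Cfsg.Spor

theorem cardF : Finite (CoxPresented Fi22.Gen FiF.edgesQ (FiF.extraWords.map FreeGroup.mk)) ∧
    Nat.card (CoxPresented Fi22.Gen FiF.edgesQ (FiF.extraWords.map FreeGroup.mk)) ≤ 3 * 2 :=
  card_le_base FiF.ok .b (by decide) rfl

theorem cardE : Finite (CoxPresented Fi22.Gen FiE.edgesQ (FiE.extraWords.map FreeGroup.mk)) ∧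
    Nat.card (CoxPresented Fi22.Gen FiE.edgesQ (FiE.extraWords.map FreeGroup.mk)) ≤ 20 * (3 * 2) :=
  card_le_chain FiE.ok FiF.edgesQ FiF.extraWords (by decide) (by decide) (by decide) (by decide) _
    cardF.1 cardF.2

theorem cardD : Finite (CoxPresented Fi22.Gen FiD.edgesQ (FiD.extraWords.map FreeGroup.mk)) ∧
    Nat.card (CoxPresented Fi22.Gen FiD.edgesQ (FiD.extraWords.map FreeGroup.mk)) ≤
      42 * (20 * (3 * 2)) :=
  card_le_chain FiD.ok FiE.edgesQ FiE.extraWords (by decide) (by decide) (by decide) (by decide) _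
    cardE.1 cardE.2

theorem cardC : Finite (CoxPresented Fi22.Gen FiC.edgesQ (FiC.extraWords.map FreeGroup.mk)) ∧
    Nat.card (CoxPresented Fi22.Gen FiC.edgesQ (FiC.extraWords.map FreeGroup.mk)) ≤
      288 * (42 * (20 * (3 * 2))) :=
  card_le_chain FiC.ok FiD.edgesQ FiD.extraWords (by decide) (by decide) (by decide) (by decide) _
    cardD.1 cardD.2

theorem cardB : Finite (CoxPresented Fi22.Gen FiB.edgesQ (FiB.extraWords.map FreeGroup.mk)) ∧
    Nat.card (CoxPresented Fi22.Gen FiB.edgesQ (FiB.extraWords.map FreeGroup.mk)) ≤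
      3159 * (288 * (42 * (20 * (3 * 2)))) :=
  card_le_chain FiB.ok FiC.edgesQ FiC.extraWords (by decide) (by decide) (by decide +kernel)
    (by decide) _ cardC.1 cardC.2

theorem cardA : Finite Fi22 ∧ Nat.card Fi22 ≤ 14080 * (3159 * (288 * (42 * (20 * (3 * 2))))) :=
  card_le_chain Cfsg.Agent.S1685.ok FiB.edgesQ FiB.extraWords (by decide) (by decide)
    (by decide +kernel) (by decide) _ cardB.1 cardB.2

instance finFi22 : Finite Fi22 := cardA.1

/-- the order, and faithfulness of the representation on 3510 points -/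
theorem card_inj : Nat.card Fi22 = 64561751654400 ∧ Function.Injective (phi FiA.ok) :=
  card_eq_and_injective (phi FiA.ok) 64561751654400 (cardA.2.trans (by norm_num)) FiA.card_range_ge

local notation "E" => Fi22.edges
local notation "X" => Fi22.extra

/-- the centraliser of `a` is maximal -/
theorem maxA : IsCoatom (Hsub E X FiA.hWords) :=
  isCoatom_of_ok FiA.ok [45072] rfl (by decide +kernel) (by norm_num) (by decide +kernel)

theorem coreA : (Hsub E X FiA.hWords).normalCore = ⊥ := core_of_injective FiA.ok card_inj.2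

local notation "gA" => lw E X [(Fi22.Gen.a, true)]

theorem conj_a (u : WT Fi22.Gen)
    (h : lwT E X (.mul (.mul u (.leaf .a true)) (.inv u)) = lwT E X (.leaf .a true)) :
    lwT E X u * gA * (lwT E X u)⁻¹ = gA := by
  rw [lwT_mul, lwT_mul, lwT_inv] at h
  exact h

theorem hnorm : ∀ h ∈ Hsub E X FiA.hWords, ∀ z ∈ Subgroup.zpowers gA,
    h * z * h⁻¹ ∈ Subgroup.zpowers gA := by
  apply conj_zpowers_of_gens {g | ∃ w ∈ FiA.hWords, lw E X w = g} _ rfl
  rintro _ ⟨w, hw, rfl⟩
  simp only [FiA.hWords, List.mem_cons, List.not_mem_nil, or_false] at hw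
  rcases hw with rfl | rfl | rfl | rfl | rfl | rfl | rfl | rfl | rfl
  · exact Or.inl (conj_a (.leaf .a true) (FiA.nrm_a card_inj.2))
  · exact Or.inl (conj_a (.leaf .c true) (FiA.nrm_c card_inj.2))
  · exact Or.inl (conj_a (.leaf .d true) (FiA.nrm_d card_inj.2))
  · exact Or.inl (conj_a (.leaf .e true) (FiA.nrm_e card_inj.2))
  · exact Or.inl (conj_a (.leaf .f true) (FiA.nrm_f card_inj.2))
  · exact Or.inl (conj_a (.leaf .g true) (FiA.nrm_g card_inj.2))
  · exact Or.inl (conj_a (.leaf .h true) (FiA.nrm_h card_inj.2))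
  · exact Or.inl (conj_a (.leaf .i true) (FiA.nrm_i card_inj.2))
  · exact Or.inl (conj_a FiA.w5 (FiA.nrm_w card_inj.2))

theorem mem_nodes (x : Fi22.Gen) : x ∈ coxNodes E := by cases x <;> decide

theorem hgen : Subgroup.normalClosure {gA} = ⊤ := by
  set N := Subgroup.normalClosure ({gA} : Set Fi22) with hN
  have hNn : N.Normal := Subgroup.normalClosure_normal
  have hA : gA ∈ N := Subgroup.subset_normalClosure (Set.mem_singleton _)
  have hB := edge_mem N (mem_nodes .a) (mem_nodes .b) 1 (by decide) hA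
  have hC := edge_mem N (mem_nodes .b) (mem_nodes .c) 1 (by decide) hB
  have hD := edge_mem N (mem_nodes .c) (mem_nodes .d) 1 (by decide) hC
  have hE := edge_mem N (mem_nodes .d) (mem_nodes .e) 1 (by decide) hD
  have hH := edge_mem N (mem_nodes .d) (mem_nodes .h) 1 (by decide) hD
  have hF := edge_mem N (mem_nodes .e) (mem_nodes .f) 1 (by decide) hE
  have hG := edge_mem N (mem_nodes .f) (mem_nodes .g) 1 (by decide) hF
  have hI := edge_mem N (mem_nodes .h) (mem_nodes .i) 1 (by decide) hH
  apply eq_top_of_gens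
  intro x
  cases x <;> assumption

theorem hperf : commutator Fi22 = ⊤ := by
  have hB := ab_edge (Abelianization.of : Fi22 →* Abelianization Fi22)
    (mem_nodes .a) (mem_nodes .b) 1 (by decide)
  have hC := hB.trans (ab_edge (Abelianization.of : Fi22 →* Abelianization Fi22)
    (mem_nodes .b) (mem_nodes .c) 1 (by decide))
  have hD := hC.trans (ab_edge (Abelianization.of : Fi22 →* Abelianization Fi22)
    (mem_nodes .c) (mem_nodes .d) 1 (by decide))
  have hE := hD.trans (ab_edge (Abelianization.of : Fi22 →* Abelianization Fi22)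
    (mem_nodes .d) (mem_nodes .e) 1 (by decide))
  have hH := hD.trans (ab_edge (Abelianization.of : Fi22 →* Abelianization Fi22)
    (mem_nodes .d) (mem_nodes .h) 1 (by decide))
  have hF := hE.trans (ab_edge (Abelianization.of : Fi22 →* Abelianization Fi22)
    (mem_nodes .e) (mem_nodes .f) 1 (by decide))
  have hG := hF.trans (ab_edge (Abelianization.of : Fi22 →* Abelianization Fi22)
    (mem_nodes .f) (mem_nodes .g) 1 (by decide))
  have hI := hH.trans (ab_edge (Abelianization.of : Fi22 →* Abelianization Fi22)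
    (mem_nodes .h) (mem_nodes .i) 1 (by decide))
  apply commutator_eq_top_of_ab .a (mem_nodes .a) _ (FiA.extraWords.getD 1 []) 31 (by decide)
  · apply lw_of_mem_rels
    right
    change FreeGroup.mk _ ∈ X
    rw [FiA.ok.hextra]
    apply List.mem_map_of_mem
    decide
  · intro x
    cases x
    · rfl
    · exact hB.symm
    · exact hC.symm
    · exact hD.symm
    · exact hE.symm
    · exact hF.symm
    · exact hG.symm
    · exact hH.symm
    · exact hI.symm

/-- **The presented Fischer group Fi22 is simple of order 64561751654400.** -/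
theorem fi22_main : IsSimpleGroup Fi22 ∧ Nat.card Fi22 = 64561751654400 := by
  refine ⟨?_, card_inj.1⟩
  have hnt : Nontrivial Fi22 := by
    rw [← Finite.one_lt_card_iff_nontrivial, card_inj.1]
    norm_num
  exact simple_of_iwasawa _ maxA coreA gA hnorm hgen hperf

end Cfsg.Agent.Lib.Helper29.FiMain
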