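import Cfsg.Agent.Lib.Helper29.Fi78.Chk
import Cfsg.Agent.Lib.Helper29.FiMain

/-!
# A faithful representation of the presented Fi22 of degree 78 over `ZMod 13`

The nine generators are sent to explicit matrices (a constituent of the permutation module on the
142155 bases of the 3-transposition group); the defining relations are checked by the kernel on
packed rows (`MatPack`), and the representation is faithful because Fi22 is simple and the image
of `a` is not the identity.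
-/

set_option autoImplicit false

namespace Cfsg.Agent.Lib.Helper29.Fi78Main

open Cfsg.Agent.Lib.Helper29 Cfsg.Agent.Lib.Helper29.MatPack Cfsg.Agent.Lib.Helper29.Fi78 Cfsg.Spor

/-- the matrix of a generator -/
noncomputable def Mat (x : Fi22.Gen) : Matrix (Fin 78) (Fin 78) (ZMod 13) := toMatF 13 78 (G x)

theorem hG : ∀ x, WFF 13 78 (G x) := by
  intro x
  cases x
  · exact wff_of_wfF _ _ _ wf_a
  · exact wff_of_wfF _ _ _ wf_b
  · exact wff_of_wfF _ _ _ wf_c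
  · exact wff_of_wfF _ _ _ wf_d
  · exact wff_of_wfF _ _ _ wf_e
  · exact wff_of_wfF _ _ _ wf_f
  · exact wff_of_wfF _ _ _ wf_g
  · exact wff_of_wfF _ _ _ wf_h
  · exact wff_of_wfF _ _ _ wf_i

theorem rel (y : Fi22.Gen) (w : List Fi22.Gen) (h : eqF (wordFB 13 78 G (G y) w) idF 78 = true) :
    ((w ++ [y]).map Mat).prod = 1 := by
  rw [List.map_append, List.prod_append, List.map_cons, List.map_nil, List.prod_cons,
    List.prod_nil, mul_one]
  exact prod_eq_one_of_chk (by norm_num) (by norm_num) (by norm_num) G hG y w h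

theorem sq (x : Fi22.Gen) : Mat x * Mat x = 1 := by
  cases x
  · simpa using rel .a [.a] chk_a_a
  · simpa using rel .b [.b] chk_b_b
  · simpa using rel .c [.c] chk_c_c
  · simpa using rel .d [.d] chk_d_d
  · simpa using rel .e [.e] chk_e_e
  · simpa using rel .f [.f] chk_f_f
  · simpa using rel .g [.g] chk_g_g
  · simpa using rel .h [.h] chk_h_h
  · simpa using rel .i [.i] chk_i_i

/-- the generators as invertible matrices -/
noncomputable def U (x : Fi22.Gen) : Matrix.GeneralLinearGroup (Fin 78) (ZMod 13) :=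
  ⟨Mat x, Mat x, sq x, sq x⟩

theorem U_val (x : Fi22.Gen) : ((U x : Matrix.GeneralLinearGroup (Fin 78) (ZMod 13)) :
    Matrix (Fin 78) (Fin 78) (ZMod 13)) = Mat x := rfl

theorem pair_of_chk (x y : Fi22.Gen) (m : ℕ) (w : List Fi22.Gen)
    (hw : w ++ [y] = (List.replicate m [x, y]).flatten)
    (h : eqF (wordFB 13 78 G (G y) w) idF 78 = true) : (U x * U y) ^ m = 1 := by
  apply Units.ext
  have h2 := rel y w h
  rw [hw, prod_replicate_flatten] at h2
  rw [Units.val_pow_eq_pow_val, Units.val_mul, Units.val_one, U_val, U_val]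
  simpa using h2

theorem pow_swap_eq_one {Gp : Type*} [Group Gp] (a b : Gp) (m : ℕ) (h : (a * b) ^ m = 1) :
    (b * a) ^ m = 1 := by
  have e : b * a = a⁻¹ * (a * b) * a⁻¹⁻¹ := by group
  rw [e, conj_pow, h]
  group

theorem pair_a_a : (U .a * U .a) ^ 1 = 1 :=
  pair_of_chk .a .a 1 [.a] rfl chk_a_a
theorem pair_a_b : (U .a * U .b) ^ 3 = 1 :=
  pair_of_chk .a .b 3 [.a, .b, .a, .b, .a] rfl chk_a_b
theorem pair_b_a : (U .b * U .a) ^ 3 = 1 := pow_swap_eq_one (U .a) (U .b) 3 pair_a_b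
theorem pair_a_c : (U .a * U .c) ^ 2 = 1 :=
  pair_of_chk .a .c 2 [.a, .c, .a] rfl chk_a_c
theorem pair_c_a : (U .c * U .a) ^ 2 = 1 := pow_swap_eq_one (U .a) (U .c) 2 pair_a_c
theorem pair_a_d : (U .a * U .d) ^ 2 = 1 :=
  pair_of_chk .a .d 2 [.a, .d, .a] rfl chk_a_d
theorem pair_d_a : (U .d * U .a) ^ 2 = 1 := pow_swap_eq_one (U .a) (U .d) 2 pair_a_d
theorem pair_a_e : (U .a * U .e) ^ 2 = 1 :=
  pair_of_chk .a .e 2 [.a, .e, .a] rfl chk_a_e
theorem pair_e_a : (U .e * U .a) ^ 2 = 1 := pow_swap_eq_one (U .a) (U .e) 2 pair_a_e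
theorem pair_a_f : (U .a * U .f) ^ 2 = 1 :=
  pair_of_chk .a .f 2 [.a, .f, .a] rfl chk_a_f
theorem pair_f_a : (U .f * U .a) ^ 2 = 1 := pow_swap_eq_one (U .a) (U .f) 2 pair_a_f
theorem pair_a_g : (U .a * U .g) ^ 2 = 1 :=
  pair_of_chk .a .g 2 [.a, .g, .a] rfl chk_a_g
theorem pair_g_a : (U .g * U .a) ^ 2 = 1 := pow_swap_eq_one (U .a) (U .g) 2 pair_a_g
theorem pair_a_h : (U .a * U .h) ^ 2 = 1 :=
  pair_of_chk .a .h 2 [.a, .h, .a] rfl chk_a_h
theorem pair_h_a : (U .h * U .a) ^ 2 = 1 := pow_swap_eq_one (U .a) (U .h) 2 pair_a_h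
theorem pair_a_i : (U .a * U .i) ^ 2 = 1 :=
  pair_of_chk .a .i 2 [.a, .i, .a] rfl chk_a_i
theorem pair_i_a : (U .i * U .a) ^ 2 = 1 := pow_swap_eq_one (U .a) (U .i) 2 pair_a_i
theorem pair_b_b : (U .b * U .b) ^ 1 = 1 :=
  pair_of_chk .b .b 1 [.b] rfl chk_b_b
theorem pair_b_c : (U .b * U .c) ^ 3 = 1 :=
  pair_of_chk .b .c 3 [.b, .c, .b, .c, .b] rfl chk_b_c
theorem pair_c_b : (U .c * U .b) ^ 3 = 1 := pow_swap_eq_one (U .b) (U .c) 3 pair_b_c
theorem pair_b_d : (U .b * U .d) ^ 2 = 1 :=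
  pair_of_chk .b .d 2 [.b, .d, .b] rfl chk_b_d
theorem pair_d_b : (U .d * U .b) ^ 2 = 1 := pow_swap_eq_one (U .b) (U .d) 2 pair_b_d
theorem pair_b_e : (U .b * U .e) ^ 2 = 1 :=
  pair_of_chk .b .e 2 [.b, .e, .b] rfl chk_b_e
theorem pair_e_b : (U .e * U .b) ^ 2 = 1 := pow_swap_eq_one (U .b) (U .e) 2 pair_b_e
theorem pair_b_f : (U .b * U .f) ^ 2 = 1 :=
  pair_of_chk .b .f 2 [.b, .f, .b] rfl chk_b_f
theorem pair_f_b : (U .f * U .b) ^ 2 = 1 := pow_swap_eq_one (U .b) (U .f) 2 pair_b_f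
theorem pair_b_g : (U .b * U .g) ^ 2 = 1 :=
  pair_of_chk .b .g 2 [.b, .g, .b] rfl chk_b_g
theorem pair_g_b : (U .g * U .b) ^ 2 = 1 := pow_swap_eq_one (U .b) (U .g) 2 pair_b_g
theorem pair_b_h : (U .b * U .h) ^ 2 = 1 :=
  pair_of_chk .b .h 2 [.b, .h, .b] rfl chk_b_h
theorem pair_h_b : (U .h * U .b) ^ 2 = 1 := pow_swap_eq_one (U .b) (U .h) 2 pair_b_h
theorem pair_b_i : (U .b * U .i) ^ 2 = 1 :=
  pair_of_chk .b .i 2 [.b, .i, .b] rfl chk_b_i
theorem pair_i_b : (U .i * U .b) ^ 2 = 1 := pow_swap_eq_one (U .b) (U .i) 2 pair_b_i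
theorem pair_c_c : (U .c * U .c) ^ 1 = 1 :=
  pair_of_chk .c .c 1 [.c] rfl chk_c_c
theorem pair_c_d : (U .c * U .d) ^ 3 = 1 :=
  pair_of_chk .c .d 3 [.c, .d, .c, .d, .c] rfl chk_c_d
theorem pair_d_c : (U .d * U .c) ^ 3 = 1 := pow_swap_eq_one (U .c) (U .d) 3 pair_c_d
theorem pair_c_e : (U .c * U .e) ^ 2 = 1 :=
  pair_of_chk .c .e 2 [.c, .e, .c] rfl chk_c_e
theorem pair_e_c : (U .e * U .c) ^ 2 = 1 := pow_swap_eq_one (U .c) (U .e) 2 pair_c_e
theorem pair_c_f : (U .c * U .f) ^ 2 = 1 :=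
  pair_of_chk .c .f 2 [.c, .f, .c] rfl chk_c_f
theorem pair_f_c : (U .f * U .c) ^ 2 = 1 := pow_swap_eq_one (U .c) (U .f) 2 pair_c_f
theorem pair_c_g : (U .c * U .g) ^ 2 = 1 :=
  pair_of_chk .c .g 2 [.c, .g, .c] rfl chk_c_g
theorem pair_g_c : (U .g * U .c) ^ 2 = 1 := pow_swap_eq_one (U .c) (U .g) 2 pair_c_g
theorem pair_c_h : (U .c * U .h) ^ 2 = 1 :=
  pair_of_chk .c .h 2 [.c, .h, .c] rfl chk_c_h
theorem pair_h_c : (U .h * U .c) ^ 2 = 1 := pow_swap_eq_one (U .c) (U .h) 2 pair_c_h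
theorem pair_c_i : (U .c * U .i) ^ 2 = 1 :=
  pair_of_chk .c .i 2 [.c, .i, .c] rfl chk_c_i
theorem pair_i_c : (U .i * U .c) ^ 2 = 1 := pow_swap_eq_one (U .c) (U .i) 2 pair_c_i
theorem pair_d_d : (U .d * U .d) ^ 1 = 1 :=
  pair_of_chk .d .d 1 [.d] rfl chk_d_d
theorem pair_d_e : (U .d * U .e) ^ 3 = 1 :=
  pair_of_chk .d .e 3 [.d, .e, .d, .e, .d] rfl chk_d_e
theorem pair_e_d : (U .e * U .d) ^ 3 = 1 := pow_swap_eq_one (U .d) (U .e) 3 pair_d_e
theorem pair_d_f : (U .d * U .f) ^ 2 = 1 :=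
  pair_of_chk .d .f 2 [.d, .f, .d] rfl chk_d_f
theorem pair_f_d : (U .f * U .d) ^ 2 = 1 := pow_swap_eq_one (U .d) (U .f) 2 pair_d_f
theorem pair_d_g : (U .d * U .g) ^ 2 = 1 :=
  pair_of_chk .d .g 2 [.d, .g, .d] rfl chk_d_g
theorem pair_g_d : (U .g * U .d) ^ 2 = 1 := pow_swap_eq_one (U .d) (U .g) 2 pair_d_g
theorem pair_d_h : (U .d * U .h) ^ 3 = 1 :=
  pair_of_chk .d .h 3 [.d, .h, .d, .h, .d] rfl chk_d_h
theorem pair_h_d : (U .h * U .d) ^ 3 = 1 := pow_swap_eq_one (U .d) (U .h) 3 pair_d_h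
theorem pair_d_i : (U .d * U .i) ^ 2 = 1 :=
  pair_of_chk .d .i 2 [.d, .i, .d] rfl chk_d_i
theorem pair_i_d : (U .i * U .d) ^ 2 = 1 := pow_swap_eq_one (U .d) (U .i) 2 pair_d_i
theorem pair_e_e : (U .e * U .e) ^ 1 = 1 :=
  pair_of_chk .e .e 1 [.e] rfl chk_e_e
theorem pair_e_f : (U .e * U .f) ^ 3 = 1 :=
  pair_of_chk .e .f 3 [.e, .f, .e, .f, .e] rfl chk_e_f
theorem pair_f_e : (U .f * U .e) ^ 3 = 1 := pow_swap_eq_one (U .e) (U .f) 3 pair_e_f
theorem pair_e_g : (U .e * U .g) ^ 2 = 1 :=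
  pair_of_chk .e .g 2 [.e, .g, .e] rfl chk_e_g
theorem pair_g_e : (U .g * U .e) ^ 2 = 1 := pow_swap_eq_one (U .e) (U .g) 2 pair_e_g
theorem pair_e_h : (U .e * U .h) ^ 2 = 1 :=
  pair_of_chk .e .h 2 [.e, .h, .e] rfl chk_e_h
theorem pair_h_e : (U .h * U .e) ^ 2 = 1 := pow_swap_eq_one (U .e) (U .h) 2 pair_e_h
theorem pair_e_i : (U .e * U .i) ^ 2 = 1 :=
  pair_of_chk .e .i 2 [.e, .i, .e] rfl chk_e_i
theorem pair_i_e : (U .i * U .e) ^ 2 = 1 := pow_swap_eq_one (U .e) (U .i) 2 pair_e_i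
theorem pair_f_f : (U .f * U .f) ^ 1 = 1 :=
  pair_of_chk .f .f 1 [.f] rfl chk_f_f
theorem pair_f_g : (U .f * U .g) ^ 3 = 1 :=
  pair_of_chk .f .g 3 [.f, .g, .f, .g, .f] rfl chk_f_g
theorem pair_g_f : (U .g * U .f) ^ 3 = 1 := pow_swap_eq_one (U .f) (U .g) 3 pair_f_g
theorem pair_f_h : (U .f * U .h) ^ 2 = 1 :=
  pair_of_chk .f .h 2 [.f, .h, .f] rfl chk_f_h
theorem pair_h_f : (U .h * U .f) ^ 2 = 1 := pow_swap_eq_one (U .f) (U .h) 2 pair_f_h
theorem pair_f_i : (U .f * U .i) ^ 2 = 1 :=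
  pair_of_chk .f .i 2 [.f, .i, .f] rfl chk_f_i
theorem pair_i_f : (U .i * U .f) ^ 2 = 1 := pow_swap_eq_one (U .f) (U .i) 2 pair_f_i
theorem pair_g_g : (U .g * U .g) ^ 1 = 1 :=
  pair_of_chk .g .g 1 [.g] rfl chk_g_g
theorem pair_g_h : (U .g * U .h) ^ 2 = 1 :=
  pair_of_chk .g .h 2 [.g, .h, .g] rfl chk_g_h
theorem pair_h_g : (U .h * U .g) ^ 2 = 1 := pow_swap_eq_one (U .g) (U .h) 2 pair_g_h
theorem pair_g_i : (U .g * U .i) ^ 2 = 1 :=
  pair_of_chk .g .i 2 [.g, .i, .g] rfl chk_g_i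
theorem pair_i_g : (U .i * U .g) ^ 2 = 1 := pow_swap_eq_one (U .g) (U .i) 2 pair_g_i
theorem pair_h_h : (U .h * U .h) ^ 1 = 1 :=
  pair_of_chk .h .h 1 [.h] rfl chk_h_h
theorem pair_h_i : (U .h * U .i) ^ 3 = 1 :=
  pair_of_chk .h .i 3 [.h, .i, .h, .i, .h] rfl chk_h_i
theorem pair_i_h : (U .i * U .h) ^ 3 = 1 := pow_swap_eq_one (U .h) (U .i) 3 pair_h_i
theorem pair_i_i : (U .i * U .i) ^ 1 = 1 :=
  pair_of_chk .i .i 1 [.i] rfl chk_i_i

theorem hcox : ∀ x y : Fi22.Gen, (U x * U y) ^ coxLabel Fi22.edges x y = 1 := by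
  intro x y
  cases x <;> cases y
  · rw [show coxLabel Fi22.edges Fi22.Gen.a Fi22.Gen.a = 1 by decide]; exact pair_a_a
  · rw [show coxLabel Fi22.edges Fi22.Gen.a Fi22.Gen.b = 3 by decide]; exact pair_a_b
  · rw [show coxLabel Fi22.edges Fi22.Gen.a Fi22.Gen.c = 2 by decide]; exact pair_a_c
  · rw [show coxLabel Fi22.edges Fi22.Gen.a Fi22.Gen.d = 2 by decide]; exact pair_a_d
  · rw [show coxLabel Fi22.edges Fi22.Gen.a Fi22.Gen.e = 2 by decide]; exact pair_a_e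
  · rw [show coxLabel Fi22.edges Fi22.Gen.a Fi22.Gen.f = 2 by decide]; exact pair_a_f
  · rw [show coxLabel Fi22.edges Fi22.Gen.a Fi22.Gen.g = 2 by decide]; exact pair_a_g
  · rw [show coxLabel Fi22.edges Fi22.Gen.a Fi22.Gen.h = 2 by decide]; exact pair_a_h
  · rw [show coxLabel Fi22.edges Fi22.Gen.a Fi22.Gen.i = 2 by decide]; exact pair_a_i
  · rw [show coxLabel Fi22.edges Fi22.Gen.b Fi22.Gen.a = 3 by decide]; exact pair_b_a
  · rw [show coxLabel Fi22.edges Fi22.Gen.b Fi22.Gen.b = 1 by decide]; exact pair_b_b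
  · rw [show coxLabel Fi22.edges Fi22.Gen.b Fi22.Gen.c = 3 by decide]; exact pair_b_c
  · rw [show coxLabel Fi22.edges Fi22.Gen.b Fi22.Gen.d = 2 by decide]; exact pair_b_d
  · rw [show coxLabel Fi22.edges Fi22.Gen.b Fi22.Gen.e = 2 by decide]; exact pair_b_e
  · rw [show coxLabel Fi22.edges Fi22.Gen.b Fi22.Gen.f = 2 by decide]; exact pair_b_f
  · rw [show coxLabel Fi22.edges Fi22.Gen.b Fi22.Gen.g = 2 by decide]; exact pair_b_g
  · rw [show coxLabel Fi22.edges Fi22.Gen.b Fi22.Gen.h = 2 by decide]; exact pair_b_h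
  · rw [show coxLabel Fi22.edges Fi22.Gen.b Fi22.Gen.i = 2 by decide]; exact pair_b_i
  · rw [show coxLabel Fi22.edges Fi22.Gen.c Fi22.Gen.a = 2 by decide]; exact pair_c_a
  · rw [show coxLabel Fi22.edges Fi22.Gen.c Fi22.Gen.b = 3 by decide]; exact pair_c_b
  · rw [show coxLabel Fi22.edges Fi22.Gen.c Fi22.Gen.c = 1 by decide]; exact pair_c_c
  · rw [show coxLabel Fi22.edges Fi22.Gen.c Fi22.Gen.d = 3 by decide]; exact pair_c_d
  · rw [show coxLabel Fi22.edges Fi22.Gen.c Fi22.Gen.e = 2 by decide]; exact pair_c_e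
  · rw [show coxLabel Fi22.edges Fi22.Gen.c Fi22.Gen.f = 2 by decide]; exact pair_c_f
  · rw [show coxLabel Fi22.edges Fi22.Gen.c Fi22.Gen.g = 2 by decide]; exact pair_c_g
  · rw [show coxLabel Fi22.edges Fi22.Gen.c Fi22.Gen.h = 2 by decide]; exact pair_c_h
  · rw [show coxLabel Fi22.edges Fi22.Gen.c Fi22.Gen.i = 2 by decide]; exact pair_c_i
  · rw [show coxLabel Fi22.edges Fi22.Gen.d Fi22.Gen.a = 2 by decide]; exact pair_d_a
  · rw [show coxLabel Fi22.edges Fi22.Gen.d Fi22.Gen.b = 2 by decide]; exact pair_d_b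
  · rw [show coxLabel Fi22.edges Fi22.Gen.d Fi22.Gen.c = 3 by decide]; exact pair_d_c
  · rw [show coxLabel Fi22.edges Fi22.Gen.d Fi22.Gen.d = 1 by decide]; exact pair_d_d
  · rw [show coxLabel Fi22.edges Fi22.Gen.d Fi22.Gen.e = 3 by decide]; exact pair_d_e
  · rw [show coxLabel Fi22.edges Fi22.Gen.d Fi22.Gen.f = 2 by decide]; exact pair_d_f
  · rw [show coxLabel Fi22.edges Fi22.Gen.d Fi22.Gen.g = 2 by decide]; exact pair_d_g
  · rw [show coxLabel Fi22.edges Fi22.Gen.d Fi22.Gen.h = 3 by decide]; exact pair_d_h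
  · rw [show coxLabel Fi22.edges Fi22.Gen.d Fi22.Gen.i = 2 by decide]; exact pair_d_i
  · rw [show coxLabel Fi22.edges Fi22.Gen.e Fi22.Gen.a = 2 by decide]; exact pair_e_a
  · rw [show coxLabel Fi22.edges Fi22.Gen.e Fi22.Gen.b = 2 by decide]; exact pair_e_b
  · rw [show coxLabel Fi22.edges Fi22.Gen.e Fi22.Gen.c = 2 by decide]; exact pair_e_c
  · rw [show coxLabel Fi22.edges Fi22.Gen.e Fi22.Gen.d = 3 by decide]; exact pair_e_d
  · rw [show coxLabel Fi22.edges Fi22.Gen.e Fi22.Gen.e = 1 by decide]; exact pair_e_e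
  · rw [show coxLabel Fi22.edges Fi22.Gen.e Fi22.Gen.f = 3 by decide]; exact pair_e_f
  · rw [show coxLabel Fi22.edges Fi22.Gen.e Fi22.Gen.g = 2 by decide]; exact pair_e_g
  · rw [show coxLabel Fi22.edges Fi22.Gen.e Fi22.Gen.h = 2 by decide]; exact pair_e_h
  · rw [show coxLabel Fi22.edges Fi22.Gen.e Fi22.Gen.i = 2 by decide]; exact pair_e_i
  · rw [show coxLabel Fi22.edges Fi22.Gen.f Fi22.Gen.a = 2 by decide]; exact pair_f_a
  · rw [show coxLabel Fi22.edges Fi22.Gen.f Fi22.Gen.b = 2 by decide]; exact pair_f_b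
  · rw [show coxLabel Fi22.edges Fi22.Gen.f Fi22.Gen.c = 2 by decide]; exact pair_f_c
  · rw [show coxLabel Fi22.edges Fi22.Gen.f Fi22.Gen.d = 2 by decide]; exact pair_f_d
  · rw [show coxLabel Fi22.edges Fi22.Gen.f Fi22.Gen.e = 3 by decide]; exact pair_f_e
  · rw [show coxLabel Fi22.edges Fi22.Gen.f Fi22.Gen.f = 1 by decide]; exact pair_f_f
  · rw [show coxLabel Fi22.edges Fi22.Gen.f Fi22.Gen.g = 3 by decide]; exact pair_f_g
  · rw [show coxLabel Fi22.edges Fi22.Gen.f Fi22.Gen.h = 2 by decide]; exact pair_f_h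
  · rw [show coxLabel Fi22.edges Fi22.Gen.f Fi22.Gen.i = 2 by decide]; exact pair_f_i
  · rw [show coxLabel Fi22.edges Fi22.Gen.g Fi22.Gen.a = 2 by decide]; exact pair_g_a
  · rw [show coxLabel Fi22.edges Fi22.Gen.g Fi22.Gen.b = 2 by decide]; exact pair_g_b
  · rw [show coxLabel Fi22.edges Fi22.Gen.g Fi22.Gen.c = 2 by decide]; exact pair_g_c
  · rw [show coxLabel Fi22.edges Fi22.Gen.g Fi22.Gen.d = 2 by decide]; exact pair_g_d
  · rw [show coxLabel Fi22.edges Fi22.Gen.g Fi22.Gen.e = 2 by decide]; exact pair_g_e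
  · rw [show coxLabel Fi22.edges Fi22.Gen.g Fi22.Gen.f = 3 by decide]; exact pair_g_f
  · rw [show coxLabel Fi22.edges Fi22.Gen.g Fi22.Gen.g = 1 by decide]; exact pair_g_g
  · rw [show coxLabel Fi22.edges Fi22.Gen.g Fi22.Gen.h = 2 by decide]; exact pair_g_h
  · rw [show coxLabel Fi22.edges Fi22.Gen.g Fi22.Gen.i = 2 by decide]; exact pair_g_i
  · rw [show coxLabel Fi22.edges Fi22.Gen.h Fi22.Gen.a = 2 by decide]; exact pair_h_a
  · rw [show coxLabel Fi22.edges Fi22.Gen.h Fi22.Gen.b = 2 by decide]; exact pair_h_b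
  · rw [show coxLabel Fi22.edges Fi22.Gen.h Fi22.Gen.c = 2 by decide]; exact pair_h_c
  · rw [show coxLabel Fi22.edges Fi22.Gen.h Fi22.Gen.d = 3 by decide]; exact pair_h_d
  · rw [show coxLabel Fi22.edges Fi22.Gen.h Fi22.Gen.e = 2 by decide]; exact pair_h_e
  · rw [show coxLabel Fi22.edges Fi22.Gen.h Fi22.Gen.f = 2 by decide]; exact pair_h_f
  · rw [show coxLabel Fi22.edges Fi22.Gen.h Fi22.Gen.g = 2 by decide]; exact pair_h_g
  · rw [show coxLabel Fi22.edges Fi22.Gen.h Fi22.Gen.h = 1 by decide]; exact pair_h_h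
  · rw [show coxLabel Fi22.edges Fi22.Gen.h Fi22.Gen.i = 3 by decide]; exact pair_h_i
  · rw [show coxLabel Fi22.edges Fi22.Gen.i Fi22.Gen.a = 2 by decide]; exact pair_i_a
  · rw [show coxLabel Fi22.edges Fi22.Gen.i Fi22.Gen.b = 2 by decide]; exact pair_i_b
  · rw [show coxLabel Fi22.edges Fi22.Gen.i Fi22.Gen.c = 2 by decide]; exact pair_i_c
  · rw [show coxLabel Fi22.edges Fi22.Gen.i Fi22.Gen.d = 2 by decide]; exact pair_i_d
  · rw [show coxLabel Fi22.edges Fi22.Gen.i Fi22.Gen.e = 2 by decide]; exact pair_i_e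
  · rw [show coxLabel Fi22.edges Fi22.Gen.i Fi22.Gen.f = 2 by decide]; exact pair_i_f
  · rw [show coxLabel Fi22.edges Fi22.Gen.i Fi22.Gen.g = 2 by decide]; exact pair_i_g
  · rw [show coxLabel Fi22.edges Fi22.Gen.i Fi22.Gen.h = 3 by decide]; exact pair_i_h
  · rw [show coxLabel Fi22.edges Fi22.Gen.i Fi22.Gen.i = 1 by decide]; exact pair_i_i

theorem word_spec (y : Fi22.Gen) (w : List Fi22.Gen) :
    WFF 13 78 (wordFB 13 78 G (G y) w) ∧
      toMatF 13 78 (wordFB 13 78 G (G y) w) = (((w ++ [y]).map Mat).prod) ^ 1 := by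
  have h := wordFB_spec (p := 13) (n := 78) (by norm_num) (by norm_num) (by norm_num) G hG
    (G y) (hG y) w
  refine ⟨h.1, ?_⟩
  rw [pow_one, List.map_append, List.prod_append, List.map_cons, List.map_nil, List.prod_cons,
    List.prod_nil, mul_one]
  exact h.2

theorem pow10_of_chk (y : Fi22.Gen) (w : List Fi22.Gen) (P : ℕ → ℕ)
    (hP : P = wordFB 13 78 G (G y) w)
    (h : eqF (mulF 13 78 (mulF 13 78 (mulF 13 78 (mulF 13 78 P P) (mulF 13 78 P P)) P)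
      (mulF 13 78 (mulF 13 78 (mulF 13 78 P P) (mulF 13 78 P P)) P)) idF 78 = true) :
    (((w ++ [y]).map Mat).prod) ^ 10 = 1 := by
  subst hP
  have h1 := word_spec y w
  have h2 := mulF_pow (by norm_num) (by norm_num) (by norm_num) _ _ _ 1 1 h1 h1
  have h4 := mulF_pow (by norm_num) (by norm_num) (by norm_num) _ _ _ 2 2 h2 h2
  have h5 := mulF_pow (by norm_num) (by norm_num) (by norm_num) _ _ _ 4 1 h4 h1
  have h10 := mulF_pow (by norm_num) (by norm_num) (by norm_num) _ _ _ 5 5 h5 h5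
  have e := h10.2
  rw [eq_one_of_chk _ h] at e
  exact e.symm

theorem pow9_of_chk (y : Fi22.Gen) (w : List Fi22.Gen) (P : ℕ → ℕ)
    (hP : P = wordFB 13 78 G (G y) w)
    (h : eqF (mulF 13 78 (mulF 13 78 (mulF 13 78 (mulF 13 78 P P) (mulF 13 78 P P))
      (mulF 13 78 (mulF 13 78 P P) (mulF 13 78 P P))) P) idF 78 = true) :
    (((w ++ [y]).map Mat).prod) ^ 9 = 1 := by
  subst hP
  have h1 := word_spec y w
  have h2 := mulF_pow (by norm_num) (by norm_num) (by norm_num) _ _ _ 1 1 h1 h1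
  have h4 := mulF_pow (by norm_num) (by norm_num) (by norm_num) _ _ _ 2 2 h2 h2
  have h8 := mulF_pow (by norm_num) (by norm_num) (by norm_num) _ _ _ 4 4 h4 h4
  have h9 := mulF_pow (by norm_num) (by norm_num) (by norm_num) _ _ _ 8 1 h8 h1
  have e := h9.2
  rw [eq_one_of_chk _ h] at e
  exact e.symm

theorem val_prod (w : List Fi22.Gen) :
    (((w.map U).prod : Matrix.GeneralLinearGroup (Fin 78) (ZMod 13)) :
      Matrix (Fin 78) (Fin 78) (ZMod 13)) = (w.map Mat).prod := by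
  induction w with
  | nil => rfl
  | cons x w ih =>
    rw [List.map_cons, List.prod_cons, List.map_cons, List.prod_cons, Units.val_mul, ih, U_val]

theorem ext_of_pow (w : List Fi22.Gen) (m : ℕ) (h : ((w.map Mat).prod) ^ m = 1) :
    ((w.map U).prod) ^ m = 1 := by
  apply Units.ext
  rw [Units.val_pow_eq_pow_val, val_prod, h, Units.val_one]

theorem lift_pos (w : List Fi22.Gen) :
    FreeGroup.lift U (FreeGroup.mk (w.map (fun x => (x, true)))) = (w.map U).prod := by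
  induction w with
  | nil => rfl
  | cons x w ih =>
    have e : (FreeGroup.mk ((x :: w).map (fun x => (x, true))) : FreeGroup Fi22.Gen) =
        FreeGroup.of x * FreeGroup.mk (w.map (fun x => (x, true))) := by
      rw [FreeGroup.of, FreeGroup.mul_mk]
      rfl
    rw [e, map_mul, FreeGroup.lift_apply_of, ih, List.map_cons, List.prod_cons]

theorem extra_rel (u : List Fi22.Gen) (m : ℕ) (h : ((u.map Mat).prod) ^ m = 1) :
    FreeGroup.lift U (FreeGroup.mk (((List.replicate m u).flatten).map (fun x => (x, true)))) =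
      1 := by
  rw [lift_pos, prod_replicate_flatten]
  exact ext_of_pow u m h

theorem lift_rel : ∀ r ∈ coxRelators Fi22.edges ∪ {r | r ∈ Fi22.extra},
    FreeGroup.lift U r = 1 := by
  rintro r (⟨x, _, y, _, rfl⟩ | hr)
  · rw [map_pow, map_mul, FreeGroup.lift_apply_of, FreeGroup.lift_apply_of]
    exact hcox x y
  · change r ∈ Fi22.extra at hr
    rw [FiA.ok.hextra] at hr
    obtain ⟨w, hw, rfl⟩ := List.mem_map.1 hr
    simp only [FiA.extraWords, List.mem_cons, List.not_mem_nil, or_false] at hw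
    rcases hw with rfl | rfl | rfl
    · exact extra_rel [.d, .c, .b, .d, .e, .f, .d, .h, .i] 10
        (pow10_of_chk .i [.d, .c, .b, .d, .e, .f, .d, .h] X1 rfl chk_X1)
    · exact extra_rel [.a, .b, .c, .d, .e, .f, .h] 9
        (pow9_of_chk .h [.a, .b, .c, .d, .e, .f] X2 rfl chk_X2)
    · exact extra_rel [.b, .c, .d, .e, .f, .g, .h] 9
        (pow9_of_chk .h [.b, .c, .d, .e, .f, .g] X3 rfl chk_X3)

/-- the representation of degree 78 over `ZMod 13` -/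
noncomputable def rep : Fi22 →* Matrix.GeneralLinearGroup (Fin 78) (ZMod 13) :=
  PresentedGroup.toGroup lift_rel

theorem rep_of (x : Fi22.Gen) : rep (PresentedGroup.of x) = U x := PresentedGroup.toGroup.of lift_rel

theorem rep_injective : Function.Injective rep := by
  rw [← MonoidHom.ker_eq_bot_iff]
  have hs : IsSimpleGroup Fi22 := FiMain.fi22_main.1
  rcases (MonoidHom.normal_ker rep).eq_bot_or_eq_top with h | h
  · exact h
  · exfalso
    have h1 : (PresentedGroup.of Fi22.Gen.a : Fi22) ∈ rep.ker := by rw [h]; trivial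
    rw [MonoidHom.mem_ker, rep_of] at h1
    have h2 : Mat .a = 1 := congrArg Units.val h1
    have h3 := congrFun (congrFun h2 1) 1
    rw [Matrix.one_apply_eq] at h3
    have h4 : Mat .a 1 1 = ((slot (G .a 1) 1 : ℕ) : ZMod 13) := rfl
    rw [h4, a_entry] at h3
    exact absurd h3 (by decide)

end Cfsg.Agent.Lib.Helper29.Fi78Main
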