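import Mathlib
import Cfsg.Agent.Lib.Helper37.HypStmt

set_option autoImplicit false
universe u

namespace Cfsg.Agent.Lib.Helper29.HypNDIV

open Cfsg.Agent.Lib.Helper37.HypStmt

/-- `NDIV` of the S5992 plan (assembly). -/
theorem main (hFib : HypFib.{u}) (hCnt : HypCnt.{u}) (hAr : NdArith) : NDiv.{u} := by
  intro F _ _ p _ _ hodd d m hd hm hme hmd r _ hrp hdiv
  obtain ⟨h, hh⟩ := hme
  have hm2 : m = 2 * h := by omega
  subst hm2
  have hhd : h ≤ d := by omega
  have hr : r.Prime := Fact.out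
  have hpp : p.Prime := Fact.out
  have hrq : ¬ r ∣ Fintype.card F := by
    obtain ⟨n, -, hn⟩ := FiniteField.card F p
    intro h1
    rw [hn] at h1
    exact hrp ((Nat.prime_dvd_prime_iff_eq hr hpp).mp (hr.dvd_of_dvd_pow h1))
  have h1 := hFib F hodd d h (by omega) hhd
  obtain ⟨t, ht, htd⟩ := hCnt F hodd d h hhd r hr hrq (dvd_trans hdiv h1)
  exact hAr (Fintype.card F) d h t r hr hrq ht hhd htd

end Cfsg.Agent.Lib.Helper29.HypNDIV
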