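import Mathlib
import Cfsg.Agent.Lib.Helper35.M24BlkElts

/-! Helpers for the centraliser pieces CD11 / CD23 of S5006: powers of a permutation given by a
table, and permutations commuting with it. -/

set_option autoImplicit false

namespace Cfsg.Agent.Lib.Helper29.M24BlkCDa

open Cfsg Cfsg.Agent.Lib.Helper7.GolayBase Cfsg.Agent.Lib.Helper7.GolayPerm

/-- The powers of a permutation given by a table are computed by iterating the table. -/
theorem pow_apply_pt {r : Equiv.Perm GolayPt} {t : List Nat} (h : Rep r t)
    (ht : ∀ i, i < 24 → t.getD i 0 < 24) (k : ℕ) :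
    ∀ i, i < 24 → (r ^ k) (pt i) = pt ((fun i => t.getD i 0)^[k] i) := by
  induction k with
  | zero => intro i _; rfl
  | succ k ih =>
    intro i hi
    rw [pow_succ, Equiv.Perm.mul_apply, h.apply hi, ih _ (ht i hi),
      Function.iterate_succ_apply]

theorem comm_pow_apply {α : Type*} {x r : Equiv.Perm α} (h : x * r = r * x) (k : ℕ) (a : α) :
    x ((r ^ k) a) = (r ^ k) (x a) := by
  have h1 : x * r ^ k = r ^ k * x := (Commute.pow_right (show Commute x r from h) k)
  exact congrArg (fun f : Equiv.Perm α => f a) h1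

/-- If `x` commutes with `r` and `x a = r^j a`, then `x` and `r^j` agree on the orbit of `a`. -/
theorem agree_on_orbit {α : Type*} {x r : Equiv.Perm α} (h : x * r = r * x) {a : α} {j : ℕ}
    (hj : x a = (r ^ j) a) (k : ℕ) : x ((r ^ k) a) = (r ^ j) ((r ^ k) a) := by
  rw [comm_pow_apply h, hj, ← Equiv.Perm.mul_apply, ← Equiv.Perm.mul_apply, ← pow_add,
    ← pow_add, add_comm]

/-- A fixed point of `r` is sent to a fixed point of `r` by a permutation commuting with `r`. -/
theorem comm_fix {α : Type*} {x r : Equiv.Perm α} (h : x * r = r * x) {c : α} (hc : r c = c) :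
    r (x c) = x c := by
  rw [← Equiv.Perm.mul_apply, ← h, Equiv.Perm.mul_apply, hc]

theorem pt_inj {i j : Nat} (hi : i < 24) (hj : j < 24) (h : pt i = pt j) : i = j := by
  have := congrArg idx h
  rwa [idx_pt hi, idx_pt hj] at this

end Cfsg.Agent.Lib.Helper29.M24BlkCDa
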