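import Mathlib
import Cfsg.Agent.Lib.Helper35.M24BlkElts
import Cfsg.Agent.Lib.Helper35.M24F5
import Cfsg.Agent.Lib.Helper29.M24BlkCDa

/-! Piece CD11 of S5006: an element of `M24` commuting with `r11` has order dividing 11.

`r11` has two cycles of length 11 (through the points 23 and 4) and two fixed points. An element
`x` of the centraliser sends the point 23 into one of the two cycles. In the first case
`r11^(-k) x` fixes the eleven points of a cycle, so it is the identity. In the second case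
`y = r11^(-k) x` sends `(23, 0, 1, 2, 3)` to `(4, 5, 19, 20, 11)`, so `y = g f` with `g` an explicit
element of `M24` and `f` one of the 48 elements fixing `3, 2, 1, 0, 23`; none of these 48
products commutes with `r11`. -/

set_option autoImplicit false

namespace Cfsg.Agent.Lib.Helper29.M24BlkCD11

open Cfsg Cfsg.Agent.Lib.Helper7.GolayBase Cfsg.Agent.Lib.Helper7.GolayPerm
  Cfsg.Agent.Lib.Helper7.ChainGen
  Cfsg.Agent.Lib.Helper35.PermTab Cfsg.Agent.Lib.Helper35.M24P Cfsg.Agent.Lib.Helper35.M24D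
  Cfsg.Agent.Lib.Helper35.M24V Cfsg.Agent.Lib.Helper35.M24Fix Cfsg.Agent.Lib.Helper35.M24F5
  Cfsg.Agent.Lib.Helper35.M24BlkElts Cfsg.Agent.Lib.Helper29.M24BlkCDa

/-- The code, inverse code and table of an element of `M24` sending `(23, 0, 1, 2, 3)` to
`(4, 5, 19, 20, 11)`. -/
def cg : Nat := 796942660881916998231651381588228848989746689898631436328
def cg' : Nat := 1189249487851772326548913052383907081077450941107303620728
def tg : List Nat :=
  [5, 19, 20, 11, 1, 2, 23, 18, 9, 6, 12, 21, 13, 8, 17, 0, 22, 14, 3, 10, 7, 15, 16, 4]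

theorem exg : ∃ g : Equiv.Perm GolayPt, g ∈ M24 ∧ pk g = cg ∧ pk g⁻¹ = cg' :=
  vP_sound (by decide +kernel)

theorem hT : ∀ i, i < 24 → t11.getD i 0 < 24 := by decide

theorem horb : ∀ i, i < 24 → t11.getD i 0 = i ∨
    (∃ k, k < 11 ∧ (fun i => t11.getD i 0)^[k] 23 = i) ∨
    ∃ k, k < 11 ∧ (fun i => t11.getD i 0)^[k] 4 = i := by decide +kernel

theorem hpow : ∀ i, i < 24 → (fun i => t11.getD i 0)^[11] i = i := by decide +kernel

/-- The cycle of the point 23. -/
def cycA : List Nat := [23, 0, 1, 2, 3, 16, 17, 15, 9, 6, 13]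

theorem hcycA : ∀ i ∈ cycA, i < 24 ∧ ∃ k, k < 11 ∧ (fun i => t11.getD i 0)^[k] 23 = i := by
  decide +kernel

theorem chk : allL (fun c => cond (Nat.beq (mulP (mulP cg c) c11) (mulP c11 (mulP cg c)))
    false true) F5C = true := by decide +kernel

theorem r11_pow : r11 ^ 11 = 1 := by
  apply Equiv.ext
  intro p
  rw [← pt_idx p, pow_apply_pt rep_r11 hT 11 _ (idx_lt p), hpow _ (idx_lt p)]
  rfl

theorem main : ∀ x ∈ M24, x * r11 = r11 * x → x ^ 11 = 1 := by
  intro x hxM hx
  have hr0 : r11 (pt 23) = pt 0 := rep_r11.apply_eq (by norm_num) (by decide)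
  rcases horb (idx (x (pt 23))) (idx_lt _) with h1 | ⟨k, hk, h2⟩ | ⟨k, hk, h3⟩
  · exfalso
    have e1 : r11 (x (pt 23)) = x (pt 23) := by
      have := rep_r11.apply (idx_lt (x (pt 23)))
      rw [pt_idx, h1, pt_idx] at this
      exact this
    have e2 : x (r11 (pt 23)) = x (pt 23) := by
      rw [← Equiv.Perm.mul_apply, hx, Equiv.Perm.mul_apply, e1]
    have e3 := x.injective e2
    rw [hr0] at e3
    have := pt_inj (by norm_num) (by norm_num) e3
    omega
  · -- `x (pt 23)` lies in the cycle of `pt 23`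
    have hj : x (pt 23) = (r11 ^ k) (pt 23) := by
      rw [pow_apply_pt rep_r11 hT k 23 (by norm_num), h2, pt_idx]
    have hyM : (r11 ^ k)⁻¹ * x ∈ M24 :=
      M24.mul_mem (M24.inv_mem (M24.pow_mem r11_mem k)) hxM
    have hfixA : ∀ i ∈ cycA, ((r11 ^ k)⁻¹ * x) (pt i) = pt i := by
      intro i hi
      obtain ⟨-, j, -, hj2⟩ := hcycA i hi
      have hp : pt i = (r11 ^ j) (pt 23) := by
        rw [pow_apply_pt rep_r11 hT j 23 (by norm_num), hj2]
      rw [hp, Equiv.Perm.mul_apply, agree_on_orbit hx hj j]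
      exact (r11 ^ k).symm_apply_apply _
    have h9 : 9 ≤ (fixedPts ((r11 ^ k)⁻¹ * x)).card := by
      have hsub : (cycA.map pt).toFinset ⊆ fixedPts ((r11 ^ k)⁻¹ * x) := by
        intro p hp
        rw [List.mem_toFinset, List.mem_map] at hp
        obtain ⟨i, hi, rfl⟩ := hp
        exact mem_fixedPts.mpr (hfixA i hi)
      have hnd : (cycA.map pt).Nodup :=
        List.Nodup.map_on (fun i hi j hj h => pt_inj (hcycA i hi).1 (hcycA j hj).1 h)
          (by decide)
      have hc : (cycA.map pt).toFinset.card = 11 := by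
        rw [List.toFinset_card_of_nodup hnd, List.length_map]
        rfl
      have := Finset.card_le_card hsub
      omega
    have hy1 := eq_one_of_fix_nine hyM h9
    have hxr : x = r11 ^ k := by
      have e : x = (r11 ^ k) * ((r11 ^ k)⁻¹ * x) := by group
      rw [e, hy1, mul_one]
    rw [hxr, ← pow_mul, mul_comm, pow_mul, r11_pow, one_pow]
  · -- `x (pt 23)` lies in the cycle of `pt 4`: impossible
    exfalso
    have hj : x (pt 23) = (r11 ^ k) (pt 4) := by
      rw [pow_apply_pt rep_r11 hT k 4 (by norm_num), h3, pt_idx]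
    obtain ⟨y, hy⟩ : ∃ y : Equiv.Perm GolayPt, y = (r11 ^ k)⁻¹ * x := ⟨_, rfl⟩
    have hyM : y ∈ M24 := by
      rw [hy]; exact M24.mul_mem (M24.inv_mem (M24.pow_mem r11_mem k)) hxM
    have hyc : y * r11 = r11 * y := by
      have h1 : (r11 ^ k)⁻¹ * r11 = r11 * (r11 ^ k)⁻¹ :=
        ((Commute.pow_right (Commute.refl r11) k).inv_right).eq.symm
      rw [hy, mul_assoc, hx, ← mul_assoc, h1, mul_assoc]
    have hy23 : y (pt 23) = pt 4 := by
      rw [hy, Equiv.Perm.mul_apply, hj]
      exact (r11 ^ k).symm_apply_apply _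
    have hstep : ∀ {i j a b : Nat}, i < 24 → t11.getD i 0 = j → a < 24 → t11.getD a 0 = b →
        y (pt i) = pt a → y (pt j) = pt b := by
      intro i j a b hi hij ha hab h
      rw [← rep_r11.apply_eq hi hij, ← Equiv.Perm.mul_apply, hyc, Equiv.Perm.mul_apply, h,
        rep_r11.apply_eq ha hab]
    have hy0 : y (pt 0) = pt 5 :=
      hstep (i := 23) (a := 4) (by norm_num) (by decide) (by norm_num) (by decide) hy23
    have hy1 : y (pt 1) = pt 19 :=
      hstep (i := 0) (a := 5) (by norm_num) (by decide) (by norm_num) (by decide) hy0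
    have hy2 : y (pt 2) = pt 20 :=
      hstep (i := 1) (a := 19) (by norm_num) (by decide) (by norm_num) (by decide) hy1
    have hy3 : y (pt 3) = pt 11 :=
      hstep (i := 2) (a := 20) (by norm_num) (by decide) (by norm_num) (by decide) hy2
    obtain ⟨g, hgM, hgc, -⟩ := exg
    have hrep : Rep g tg := rep_of_pk (by decide) (by decide) (hgc.trans (by decide +kernel))
    have hg23 : g (pt 23) = pt 4 := hrep.apply_eq (by norm_num) (by decide)
    have hg0 : g (pt 0) = pt 5 := hrep.apply_eq (by norm_num) (by decide)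
    have hg1 : g (pt 1) = pt 19 := hrep.apply_eq (by norm_num) (by decide)
    have hg2 : g (pt 2) = pt 20 := hrep.apply_eq (by norm_num) (by decide)
    have hg3 : g (pt 3) = pt 11 := hrep.apply_eq (by norm_num) (by decide)
    have hf : g⁻¹ * y ∈ M24 ⊓ FixL [3, 2, 1, 0, 23] := by
      refine ⟨M24.mul_mem (M24.inv_mem hgM) hyM, ?_⟩
      intro i hi
      simp only [List.mem_cons, List.not_mem_nil, or_false] at hi
      rcases hi with rfl | rfl | rfl | rfl | rfl
      · show g⁻¹ (y (pt 3)) = pt 3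
        rw [hy3, ← hg3]; exact g.symm_apply_apply _
      · show g⁻¹ (y (pt 2)) = pt 2
        rw [hy2, ← hg2]; exact g.symm_apply_apply _
      · show g⁻¹ (y (pt 1)) = pt 1
        rw [hy1, ← hg1]; exact g.symm_apply_apply _
      · show g⁻¹ (y (pt 0)) = pt 0
        rw [hy0, ← hg0]; exact g.symm_apply_apply _
      · show g⁻¹ (y (pt 23)) = pt 23
        rw [hy23, ← hg23]; exact g.symm_apply_apply _
    have hchk : cond (Nat.beq (mulP (mulP cg (pk (g⁻¹ * y))) c11)
        (mulP c11 (mulP cg (pk (g⁻¹ * y))))) false true = true :=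
      (allL_iff _ _).mp chk _ (mem_F5 hf)
    have e1 : y = g * (g⁻¹ * y) := by group
    have e2 : mulP (mulP cg (pk (g⁻¹ * y))) c11 = mulP c11 (mulP cg (pk (g⁻¹ * y))) := by
      rw [← hgc, ← pk_r11, ← pk_mul, ← pk_mul, ← pk_mul, ← e1, hyc]
    rw [e2, Nat.beq_refl] at hchk
    exact Bool.false_ne_true hchk

end Cfsg.Agent.Lib.Helper29.M24BlkCD11
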