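import Mathlib
import Cfsg.Agent.Lib.Helper35.M24BlkElts
import Cfsg.Agent.Lib.Helper29.M24BlkCDa

/-! Piece CD23 of S5006: the centraliser of `r23` consists of elements of order dividing 23
(it is generated by `r23`: a permutation commuting with the 23-cycle is a power of it). -/

set_option autoImplicit false

namespace Cfsg.Agent.Lib.Helper29.M24BlkCD23

open Cfsg Cfsg.Agent.Lib.Helper7.GolayBase Cfsg.Agent.Lib.Helper7.GolayPerm
  Cfsg.Agent.Lib.Helper35.M24BlkElts Cfsg.Agent.Lib.Helper29.M24BlkCDa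

theorem hT : ∀ i, i < 24 → t23.getD i 0 < 24 := by decide

theorem hfix : ∀ i, i < 24 → t23.getD i 0 = i → i = 9 := by decide

theorem horb : ∀ i, i < 24 →
    i = 9 ∨ ∃ k, k < 23 ∧ (fun i => t23.getD i 0)^[k] 23 = i := by decide +kernel

theorem hpow : ∀ i, i < 24 → (fun i => t23.getD i 0)^[23] i = i := by decide +kernel

theorem r23_pow : r23 ^ 23 = 1 := by
  apply Equiv.ext
  intro p
  rw [← pt_idx p, pow_apply_pt rep_r23 hT 23 _ (idx_lt p), hpow _ (idx_lt p)]
  rfl

/-- A permutation commuting with `r23` is a power of `r23`. -/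
theorem eq_pow {x : Equiv.Perm GolayPt} (hx : x * r23 = r23 * x) : ∃ k : ℕ, x = r23 ^ k := by
  have hr9 : r23 (pt 9) = pt 9 := rep_r23.apply_eq (by decide) (by decide)
  have huniq : ∀ c, r23 c = c → c = pt 9 := by
    intro c hc
    have h1 := rep_r23.apply (idx_lt c)
    rw [pt_idx, hc] at h1
    have h2 := (congrArg idx h1).trans (idx_pt (hT _ (idx_lt c)))
    have h3 := hfix _ (idx_lt c) h2.symm
    rw [← pt_idx c, h3]
  have hx9 : x (pt 9) = pt 9 := huniq _ (comm_fix hx hr9)
  rcases horb (idx (x (pt 23))) (idx_lt _) with h9 | ⟨k, hk, hk2⟩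
  · exfalso
    have hq : x (pt 23) = pt 9 := by rw [← pt_idx (x (pt 23)), h9]
    have h1 : pt 23 = pt 9 := x.injective (hq.trans hx9.symm)
    have h2 := pt_inj (by norm_num) (by norm_num) h1
    omega
  · have hj : x (pt 23) = (r23 ^ k) (pt 23) := by
      rw [pow_apply_pt rep_r23 hT k 23 (by norm_num), hk2, pt_idx]
    refine ⟨k, Equiv.ext (fun p => ?_)⟩
    rcases horb (idx p) (idx_lt _) with h9 | ⟨i, hi, hi2⟩
    · have hp : p = pt 9 := by rw [← pt_idx p, h9]
      rw [hp, hx9, Equiv.Perm.pow_apply_eq_self_of_apply_eq_self hr9]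
    · have hp : p = (r23 ^ i) (pt 23) := by
        rw [pow_apply_pt rep_r23 hT i 23 (by norm_num), hi2, pt_idx]
      rw [hp]
      exact agree_on_orbit hx hj i

theorem main : ∀ x ∈ M24, x * r23 = r23 * x → x ^ 23 = 1 := by
  intro x _ hx
  obtain ⟨k, rfl⟩ := eq_pow hx
  rw [← pow_mul, mul_comm, pow_mul, r23_pow, one_pow]

end Cfsg.Agent.Lib.Helper29.M24BlkCD23
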