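import Mathlib

/-!
# Kernel-friendly matrix products over `ZMod p`

A square matrix of size `n` is a function from row indices to natural numbers; the entry in
column `j` is the `j`-th 16-bit slot of the row.  `mulF` multiplies two such matrices (one
multiplication of a slot by a whole row per entry, then a reduction of every slot modulo `p`),
written with raw recursors so that the kernel evaluates it cheaply; `wordFB_spec` says that the
matrix of a word is the product of the matrices of its letters.  Rows are always reached through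
their index, so that the terms the kernel caches have distinct hashes (the hash of a numeral is its
lowest 64 bits, which coincide for many rows).
-/

namespace Cfsg.Agent.Lib.Helper29.MatPack

/-- the `j`-th 16-bit slot of `x` -/
def slot (x j : ℕ) : ℕ := x / 65536 ^ j % 65536

/-- the number with slots `f 0, …, f (n-1)` -/
def pack (f : ℕ → ℕ) (n : ℕ) : ℕ := ∑ j ∈ Finset.range n, f j * 65536 ^ j

theorem slot_lt (x j : ℕ) : slot x j < 65536 := Nat.mod_lt _ (by norm_num)

theorem slot_succ (x j : ℕ) : slot x (j + 1) = slot (x / 65536) j := by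
  unfold slot
  rw [pow_succ', Nat.div_div_eq_div_mul]

theorem slot_zero (x : ℕ) : slot x 0 = x % 65536 := by
  unfold slot
  rw [pow_zero, Nat.div_one]

theorem pack_succ (f : ℕ → ℕ) (n : ℕ) : pack f (n + 1) = pack f n + f n * 65536 ^ n := by
  unfold pack
  rw [Finset.sum_range_succ]

theorem pack_succ' (f : ℕ → ℕ) (n : ℕ) :
    pack f (n + 1) = f 0 + 65536 * pack (fun j => f (j + 1)) n := by
  unfold pack
  rw [Finset.sum_range_succ', Finset.mul_sum, pow_zero, mul_one, add_comm]
  congr 1
  apply Finset.sum_congr rfl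
  intro j _
  rw [pow_succ]
  ring

theorem pack_lt (f : ℕ → ℕ) (n : ℕ) (h : ∀ j, j < n → f j < 65536) : pack f n < 65536 ^ n := by
  induction n with
  | zero => simp [pack]
  | succ n ih =>
    rw [pack_succ, pow_succ]
    have h1 := ih (fun j hj => h j (Nat.lt_succ_of_lt hj))
    have h2 : f n ≤ 65535 := Nat.le_of_lt_succ (h n (Nat.lt_succ_self n))
    nlinarith [Nat.mul_le_mul_right (65536 ^ n) h2]

theorem slot_pack (f : ℕ → ℕ) (n : ℕ) (h : ∀ j, j < n → f j < 65536) :
    ∀ j, j < n → slot (pack f n) j = f j := by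
  induction n with
  | zero => intro j hj; omega
  | succ n ih =>
    intro j hj
    have h' : ∀ j, j < n → f j < 65536 := fun j hj => h j (Nat.lt_succ_of_lt hj)
    rw [pack_succ]
    unfold slot
    rcases Nat.lt_succ_iff_lt_or_eq.1 hj with hjn | rfl
    · have e : 65536 ^ n = 65536 ^ j * (65536 * 65536 ^ (n - j - 1)) := by
        rw [← pow_succ', ← pow_add]
        congr 1
        omega
      rw [e, ← mul_assoc, mul_comm (f n), mul_assoc,
        Nat.add_mul_div_left _ _ (by positivity : 0 < 65536 ^ j), mul_comm (f n), mul_assoc,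
        Nat.add_mul_mod_self_left]
      exact ih h' j hjn
    · rw [Nat.add_mul_div_right _ _ (by positivity : 0 < 65536 ^ j),
        Nat.div_eq_of_lt (pack_lt f j h'), zero_add]
      exact Nat.mod_eq_of_lt (h j (Nat.lt_succ_self j))

theorem pack_slot_mod (x n : ℕ) : pack (slot x) n = x % 65536 ^ n := by
  induction n with
  | zero => simp [pack, Nat.mod_one]
  | succ n ih =>
    rw [pack_succ, ih, Nat.mod_pow_succ]
    unfold slot
    ring

theorem pack_slot (x n : ℕ) (hx : x < 65536 ^ n) : pack (slot x) n = x := by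
  rw [pack_slot_mod, Nat.mod_eq_of_lt hx]

theorem pack_add (f g : ℕ → ℕ) (n : ℕ) : pack f n + pack g n = pack (fun j => f j + g j) n := by
  unfold pack
  rw [← Finset.sum_add_distrib]
  apply Finset.sum_congr rfl
  intro j _
  ring

theorem pack_mul (c : ℕ) (f : ℕ → ℕ) (n : ℕ) : c * pack f n = pack (fun j => c * f j) n := by
  unfold pack
  rw [Finset.mul_sum]
  apply Finset.sum_congr rfl
  intro j _
  ring

theorem pack_zero (n : ℕ) : pack (fun _ => 0) n = 0 := by
  unfold pack
  simp

/-- `Σ_{k<m} (slot a k) * B k` -/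
noncomputable def combF (B : ℕ → ℕ) (a : ℕ) (m : ℕ) : ℕ :=
  Nat.rec (motive := fun _ => ℕ) 0
    (fun k ih => Nat.add ih (Nat.mul (Nat.mod (Nat.div a (Nat.pow 65536 k)) 65536) (B k))) m

theorem combF_zero (B : ℕ → ℕ) (a : ℕ) : combF B a 0 = 0 := rfl

theorem combF_succ (B : ℕ → ℕ) (a m : ℕ) :
    combF B a (m + 1) = combF B a m + slot a m * B m := rfl

theorem combF_eq (B : ℕ → ℕ) (a : ℕ) (m : ℕ) :
    combF B a m = ∑ k ∈ Finset.range m, slot a k * B k := by
  induction m with
  | zero => simp [combF_zero]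
  | succ m ih => rw [combF_succ, ih, Finset.sum_range_succ]

/-- the first `m` slots, each reduced modulo `p` -/
noncomputable def normF (p : ℕ) (x : ℕ) (m : ℕ) : ℕ :=
  Nat.rec (motive := fun _ => ℕ) 0
    (fun j ih => Nat.add ih
      (Nat.mul (Nat.mod (Nat.mod (Nat.div x (Nat.pow 65536 j)) 65536) p) (Nat.pow 65536 j))) m

theorem normF_zero (p x : ℕ) : normF p x 0 = 0 := rfl

theorem normF_succ (p x m : ℕ) :
    normF p x (m + 1) = normF p x m + slot x m % p * 65536 ^ m := rfl

theorem normF_eq (p x : ℕ) (m : ℕ) : normF p x m = pack (fun j => slot x j % p) m := by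
  induction m with
  | zero => simp [normF_zero, pack]
  | succ m ih => rw [normF_succ, ih, pack_succ]

/-- the product of two matrices -/
noncomputable def mulF (p n : ℕ) (A B : ℕ → ℕ) (i : ℕ) : ℕ := normF p (combF B (A i) n) n

/-- the identity matrix -/
noncomputable def idF (i : ℕ) : ℕ := Nat.pow 65536 i

theorem idF_eq (i : ℕ) : idF i = 65536 ^ i := rfl

/-- the matrix of a word in the generators, times the matrix `base` -/
noncomputable def wordFB {α : Type} (p n : ℕ) (G : α → ℕ → ℕ) (base : ℕ → ℕ) (w : List α) :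
    ℕ → ℕ :=
  List.rec (motive := fun _ => ℕ → ℕ) base (fun x _ ih => mulF p n (G x) ih) w

theorem wordFB_nil {α : Type} (p n : ℕ) (G : α → ℕ → ℕ) (base : ℕ → ℕ) :
    wordFB p n G base [] = base := rfl

theorem wordFB_cons {α : Type} (p n : ℕ) (G : α → ℕ → ℕ) (base : ℕ → ℕ) (x : α) (w : List α) :
    wordFB p n G base (x :: w) = mulF p n (G x) (wordFB p n G base w) := rfl

/-- a test for all `i < m` -/
noncomputable def allB (f : ℕ → Bool) (m : ℕ) : Bool :=
  Nat.rec (motive := fun _ => Bool) true
    (fun i ih => Bool.rec (motive := fun _ => Bool) false ih (f i)) m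

theorem allB_sound (f : ℕ → Bool) (m : ℕ) (h : allB f m = true) : ∀ i, i < m → f i = true := by
  induction m with
  | zero => intro i hi; omega
  | succ m ih =>
    intro i hi
    have h' : Bool.rec (motive := fun _ => Bool) false (allB f m) (f m) = true := h
    cases hf : f m with
    | false => rw [hf] at h'; cases h'
    | true =>
      rw [hf] at h'
      rcases Nat.lt_succ_iff_lt_or_eq.1 hi with h1 | rfl
      · exact ih h' i h1
      · exact hf

/-- equality of the first `m` rows -/
noncomputable def eqF (A B : ℕ → ℕ) (m : ℕ) : Bool := allB (fun i => Nat.beq (A i) (B i)) m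

theorem eqF_sound (A B : ℕ → ℕ) (m : ℕ) (h : eqF A B m = true) : ∀ i, i < m → A i = B i :=
  fun i hi => Nat.eq_of_beq_eq_true (allB_sound _ m h i hi)

/-- the `i`-th element of a list, `0` beyond its end -/
noncomputable def nthF (l : List ℕ) : ℕ → ℕ :=
  List.rec (motive := fun _ => ℕ → ℕ) (fun _ => 0)
    (fun a _ ih i => Nat.rec (motive := fun _ => ℕ) a (fun i' _ => ih i') i) l

theorem nthF_nil (i : ℕ) : nthF [] i = 0 := rfl

theorem nthF_cons_zero (a : ℕ) (l : List ℕ) : nthF (a :: l) 0 = a := rfl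

theorem nthF_cons_succ (a : ℕ) (l : List ℕ) (i : ℕ) : nthF (a :: l) (i + 1) = nthF l i := rfl

/-- well-formed matrices: rows below `65536 ^ n` with all slots below `p` -/
def WFF (p n : ℕ) (A : ℕ → ℕ) : Prop :=
  ∀ i, i < n → A i < 65536 ^ n ∧ ∀ j, j < n → slot (A i) j < p

/-- a test of well-formedness -/
noncomputable def wfF (p n : ℕ) (A : ℕ → ℕ) : Bool :=
  allB (fun i => Bool.rec (motive := fun _ => Bool) false
    (allB (fun j => Nat.blt (Nat.mod (Nat.div (A i) (Nat.pow 65536 j)) 65536) p) n)
    (Nat.blt (A i) (Nat.pow 65536 n))) n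

theorem wff_of_wfF (p n : ℕ) (A : ℕ → ℕ) (h : wfF p n A = true) : WFF p n A := by
  intro i hi
  have h1 := allB_sound _ n h i hi
  cases h2 : Nat.blt (A i) (Nat.pow 65536 n) with
  | false => rw [h2] at h1; cases h1
  | true =>
    rw [h2] at h1
    refine ⟨Nat.le_of_ble_eq_true h2, fun j hj => ?_⟩
    exact Nat.le_of_ble_eq_true (allB_sound _ n h1 j hj)

section Sem

variable (p n : ℕ)

/-- the matrix over `ZMod p` encoded by a function giving the rows -/
def toMatF (A : ℕ → ℕ) : Matrix (Fin n) (Fin n) (ZMod p) :=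
  Matrix.of fun i j => ((slot (A i) j : ℕ) : ZMod p)

theorem toMatF_apply (A : ℕ → ℕ) (i j : Fin n) :
    toMatF p n A i j = ((slot (A i) j : ℕ) : ZMod p) := rfl

variable {p n}

theorem toMatF_congr (A B : ℕ → ℕ) (h : ∀ i, i < n → A i = B i) : toMatF p n A = toMatF p n B := by
  ext i j
  rw [toMatF_apply, toMatF_apply, h i i.2]

theorem wff_mulF (hp : 0 < p) (hp' : p ≤ 65536) (A B : ℕ → ℕ) : WFF p n (mulF p n A B) := by
  intro i _
  unfold mulF
  rw [normF_eq]
  refine ⟨pack_lt _ _ (fun j _ => lt_of_lt_of_le (Nat.mod_lt _ hp) hp'), fun j hj => ?_⟩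
  rw [slot_pack _ _ (fun j _ => lt_of_lt_of_le (Nat.mod_lt _ hp) hp') j hj]
  exact Nat.mod_lt _ hp

theorem toMatF_mulF (hp : 0 < p) (hp' : p ≤ 65536) (hb : n * ((p - 1) * (p - 1)) < 65536)
    (A B : ℕ → ℕ) (hA : WFF p n A) (hB : WFF p n B) :
    toMatF p n (mulF p n A B) = toMatF p n A * toMatF p n B := by
  ext i j
  rw [Matrix.mul_apply, toMatF_apply]
  unfold mulF
  rw [normF_eq, combF_eq]
  set a := A (i : ℕ) with ha
  -- the combination as a packed number
  have e1 : ∑ k ∈ Finset.range n, slot a k * B k =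
      pack (fun j => ∑ k ∈ Finset.range n, slot a k * slot (B k) j) n := by
    have : ∀ k ∈ Finset.range n, slot a k * B k = pack (fun j => slot a k * slot (B k) j) n := by
      intro k hk
      rw [← pack_mul, pack_slot _ _ (hB k (Finset.mem_range.1 hk)).1]
    rw [Finset.sum_congr rfl this]
    unfold pack
    rw [Finset.sum_comm]
    apply Finset.sum_congr rfl
    intro j _
    rw [Finset.sum_mul]
  have hbound : ∀ j, j < n → ∑ k ∈ Finset.range n, slot a k * slot (B k) j < 65536 := by
    intro j hj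
    refine lt_of_le_of_lt ?_ hb
    have : ∀ k ∈ Finset.range n, slot a k * slot (B k) j ≤ (p - 1) * (p - 1) := by
      intro k hk
      have h1 : slot a k ≤ p - 1 := Nat.le_pred_of_lt ((hA i i.2).2 k (Finset.mem_range.1 hk))
      have h2 : slot (B k) j ≤ p - 1 :=
        Nat.le_pred_of_lt ((hB k (Finset.mem_range.1 hk)).2 j hj)
      exact Nat.mul_le_mul h1 h2
    calc ∑ k ∈ Finset.range n, slot a k * slot (B k) j
        ≤ ∑ _k ∈ Finset.range n, (p - 1) * (p - 1) := Finset.sum_le_sum this
      _ = n * ((p - 1) * (p - 1)) := by rw [Finset.sum_const, Finset.card_range, smul_eq_mul]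
  rw [e1, slot_pack _ _ (fun j _ => lt_of_lt_of_le (Nat.mod_lt _ hp) hp') j j.2,
    slot_pack _ _ hbound j j.2, ZMod.natCast_mod, Nat.cast_sum, ← Fin.sum_univ_eq_sum_range
      (fun k => ((slot a k * slot (B k) j : ℕ) : ZMod p)) n]
  apply Finset.sum_congr rfl
  intro k _
  rw [Nat.cast_mul, toMatF_apply, toMatF_apply]

theorem slot_pow (i j : ℕ) : slot (65536 ^ i) j = if i = j then 1 else 0 := by
  unfold slot
  rcases lt_trichotomy i j with h | h | h
  · rw [if_neg (Nat.ne_of_lt h), Nat.div_eq_of_lt (Nat.pow_lt_pow_right (by norm_num) h)]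
  · rw [if_pos h, h, Nat.div_self (by positivity)]
  · rw [if_neg (Nat.ne_of_gt h), Nat.pow_div (Nat.le_of_lt h) (by norm_num)]
    obtain ⟨d, hd⟩ : ∃ d, i - j = d + 1 := ⟨i - j - 1, by omega⟩
    rw [hd, pow_succ, Nat.mul_mod_left]

theorem wff_idF (hp : 1 < p) : WFF p n idF := by
  intro i hi
  rw [idF_eq]
  refine ⟨Nat.pow_lt_pow_right (by norm_num) hi, fun j _ => ?_⟩
  rw [slot_pow]
  split_ifs <;> omega

theorem toMatF_idF : toMatF p n idF = 1 := by
  ext i j
  rw [toMatF_apply, idF_eq, slot_pow, Matrix.one_apply]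
  by_cases h : i = j
  · rw [if_pos h, if_pos (congrArg Fin.val h), Nat.cast_one]
  · rw [if_neg h, if_neg (fun h' => h (Fin.ext h')), Nat.cast_zero]

theorem wordFB_spec {α : Type} (hp : 1 < p) (hp' : p ≤ 65536)
    (hb : n * ((p - 1) * (p - 1)) < 65536) (G : α → ℕ → ℕ) (hG : ∀ x, WFF p n (G x))
    (base : ℕ → ℕ) (hbase : WFF p n base) (w : List α) : WFF p n (wordFB p n G base w) ∧
      toMatF p n (wordFB p n G base w) =
        (w.map (fun x => toMatF p n (G x))).prod * toMatF p n base := by
  induction w with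
  | nil => exact ⟨hbase, by rw [wordFB_nil, List.map_nil, List.prod_nil, one_mul]⟩
  | cons x w ih =>
    rw [wordFB_cons]
    refine ⟨wff_mulF (Nat.lt_of_succ_lt hp) hp' _ _, ?_⟩
    rw [toMatF_mulF (Nat.lt_of_succ_lt hp) hp' hb _ _ (hG x) ih.1, ih.2, List.map_cons,
      List.prod_cons, mul_assoc]

/-- a relator word checked by evaluation gives a matrix identity -/
theorem prod_eq_one_of_chk {α : Type} (hp : 1 < p) (hp' : p ≤ 65536)
    (hb : n * ((p - 1) * (p - 1)) < 65536) (G : α → ℕ → ℕ) (hG : ∀ x, WFF p n (G x))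
    (y : α) (w : List α) (h : eqF (wordFB p n G (G y) w) idF n = true) :
    (w.map (fun x => toMatF p n (G x))).prod * toMatF p n (G y) = 1 := by
  rw [← (wordFB_spec hp hp' hb G hG (G y) (hG y) w).2, toMatF_congr _ _ (eqF_sound _ _ n h),
    toMatF_idF]

/-- products of matrices that are powers of one matrix -/
theorem mulF_pow (hp : 1 < p) (hp' : p ≤ 65536) (hb : n * ((p - 1) * (p - 1)) < 65536)
    (M : Matrix (Fin n) (Fin n) (ZMod p)) (A B : ℕ → ℕ) (a b : ℕ)
    (hA : WFF p n A ∧ toMatF p n A = M ^ a) (hB : WFF p n B ∧ toMatF p n B = M ^ b) :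
    WFF p n (mulF p n A B) ∧ toMatF p n (mulF p n A B) = M ^ (a + b) :=
  ⟨wff_mulF (Nat.lt_of_succ_lt hp) hp' _ _, by
    rw [toMatF_mulF (Nat.lt_of_succ_lt hp) hp' hb _ _ hA.1 hB.1, hA.2, hB.2, pow_add]⟩

/-- a matrix checked to be the identity -/
theorem eq_one_of_chk (A : ℕ → ℕ) (h : eqF A idF n = true) : toMatF p n A = 1 := by
  rw [toMatF_congr _ _ (eqF_sound _ _ n h), toMatF_idF]

end Sem

/-- the product over a repeated word -/
theorem prod_replicate_flatten {M : Type*} [Monoid M] {α : Type} (f : α → M) (w : List α) (m : ℕ) :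
    (((List.replicate m w).flatten).map f).prod = ((w.map f).prod) ^ m := by
  induction m with
  | zero => simp
  | succ m ih =>
    rw [List.replicate_succ, List.flatten_cons, List.map_append, List.prod_append, ih, pow_succ']

end Cfsg.Agent.Lib.Helper29.MatPack
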