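import Mathlib
import Cfsg.Agent.Lib.Helper41.OMStmt
import Cfsg.Agent.Lib.Helper29.NoCommGen

/-!
# S5978 / NOCOMMG (call by helper41)

The general-Gram-matrix version of `Helper29.OFNOCOMMO`: a wrapper of
`Helper29.NoCommGen.no_comm_gram`.
-/

set_option autoImplicit false
universe u

namespace Cfsg.Agent.Lib.Helper29.OMNOCOMMG

theorem main : Cfsg.Agent.Lib.Helper41.OMStmt.NoCommG.{u} := by
  intro F _ _ q hF ι _ _ S x _ hSdet hx N hN hxN P R hP hPm hχ hPR e he hxQ J a b hJJ hdisc hJq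
    hJs hc
  exact Cfsg.Agent.Lib.Helper29.NoCommGen.no_comm_gram hF S hSdet x hx N hN hxN P R hP hPm hχ
    hPR e he hxQ J a b hJJ hdisc hJq hJs hc

end Cfsg.Agent.Lib.Helper29.OMNOCOMMG
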