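import Mathlib
import Cfsg.Agent.Lib.Helper37.OrtStmt

set_option autoImplicit false
universe u

namespace Cfsg.Agent.Lib.Helper29.OrtDIAGR

open Matrix Module Polynomial

section general

variable {F : Type*} [Field F] {V : Type*} [AddCommGroup V] [Module F V]

/-- the kernel of a split polynomial with simple roots in `f` lies in the span of the
eigenspaces -/
theorem ker_prod_le (f : Module.End F V) (s : Finset F) :
    LinearMap.ker (aeval f (∏ a ∈ s, (X - C a))) ≤ ⨆ μ, f.eigenspace μ := by
  classical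
  induction s using Finset.induction_on with
  | empty =>
    rw [Finset.prod_empty, map_one]
    intro v hv
    rw [LinearMap.mem_ker, Module.End.one_apply] at hv
    rw [hv]; exact Submodule.zero_mem _
  | insert a s ha ih =>
    rw [Finset.prod_insert ha]
    have hcop : IsCoprime (X - C a) (∏ b ∈ s, (X - C b)) := by
      apply IsCoprime.prod_right
      intro b hb
      apply isCoprime_X_sub_C_of_isUnit_sub
      exact IsUnit.mk0 _ (sub_ne_zero.mpr (fun h => ha (h ▸ hb)))
    rw [← sup_ker_aeval_eq_ker_aeval_mul_of_coprime f hcop]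
    apply sup_le _ ih
    have h1 : aeval f (X - C a) = f - a • 1 := by
      rw [map_sub, aeval_X, aeval_C, Algebra.algebraMap_eq_smul_one]
    rw [h1, ← Module.End.eigenspace_def]
    exact le_iSup f.eigenspace a

theorem iSup_eigenspace_eq_top (f : Module.End F V) (r : ℕ) (hr : 0 < r) (ω : F)
    (hω : IsPrimitiveRoot ω r) (hf : f ^ r = 1) : ⨆ μ, f.eigenspace μ = ⊤ := by
  rw [eq_top_iff]
  refine le_trans ?_ (ker_prod_le f (nthRootsFinset r (1 : F)))
  rw [← X_pow_sub_one_eq_prod hr hω]
  have : aeval f (X ^ r - 1 : F[X]) = 0 := by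
    rw [map_sub, map_pow, aeval_X, map_one, hf, sub_self]
  rw [this, LinearMap.ker_zero]

theorem exists_eigenbasis' [FiniteDimensional F V] (f : Module.End F V)
    (htop : ⨆ μ, f.eigenspace μ = ⊤) :
    ∃ (b : Basis (Fin (finrank F V)) F V) (ε : Fin (finrank F V) → F),
      ∀ i, f (b i) = ε i • b i := by
  classical
  have hind := Module.End.eigenspaces_iSupIndep f
  have hint := DirectSum.isInternal_submodule_of_iSupIndep_of_iSup_eq_top hind htop
  let bW : ∀ μ : F, Basis (Fin (finrank F (f.eigenspace μ))) F (f.eigenspace μ) :=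
    fun μ => Module.finBasis F (f.eigenspace μ)
  let b := hint.collectedBasis bW
  have := FiniteDimensional.fintypeBasisIndex b
  let e := Fintype.equivFinOfCardEq (Module.finrank_eq_card_basis b).symm
  refine ⟨b.reindex e, fun i => (e.symm i).1, ?_⟩
  intro i
  have hmem : b (e.symm i) ∈ f.eigenspace (e.symm i).1 := hint.collectedBasis_mem bW _
  rw [Basis.reindex_apply]
  exact Module.End.mem_eigenspace_iff.mp hmem

theorem pow_mulVec_eig {n : ℕ} (M : Matrix (Fin n) (Fin n) F) (v : Fin n → F) (c : F)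
    (h : M.mulVec v = c • v) (k : ℕ) : (M ^ k).mulVec v = c ^ k • v := by
  induction k with
  | zero => simp
  | succ k ih =>
    rw [pow_succ, ← Matrix.mulVec_mulVec, h, Matrix.mulVec_smul, ih, smul_smul]
    congr 1
    ring

end general

/-- `DIAGR` of the S5981 plan. -/
theorem main : Cfsg.Agent.Lib.Helper37.OrtStmt.DiagR.{u} := by
  intro F _ _ r hrp hr n x hx
  classical
  have hrpos : 0 < r := hrp.out.pos
  -- ω
  have hcard : r ∣ Nat.card Fˣ := by
    rw [Nat.card_eq_fintype_card, Fintype.card_units]; exact hr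
  obtain ⟨ω', hω'⟩ := exists_prime_orderOf_dvd_card' r hcard
  have hω : orderOf (ω' : F) = r := by rw [orderOf_units]; exact hω'
  have hprim : IsPrimitiveRoot (ω' : F) r := by
    rw [← hω]; exact IsPrimitiveRoot.orderOf _
  -- eigenbasis
  have hf : (Matrix.toLin' x) ^ r = 1 := by
    rw [← Matrix.toLin'_pow, hx, Matrix.toLin'_one]; rfl
  have htop := iSup_eigenspace_eq_top (Matrix.toLin' x) r hrpos (ω' : F) hprim hf
  obtain ⟨b0, ε0, hb0⟩ := exists_eigenbasis' (Matrix.toLin' x) htop
  have hcardn : Fintype.card (Fin n) = finrank F (Fin n → F) := by simp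
  let e : Fin (finrank F (Fin n → F)) ≃ Fin n := (Fintype.equivFinOfCardEq hcardn).symm
  set b : Basis (Fin n) F (Fin n → F) := b0.reindex e with hb
  have hxb : ∀ i, x.mulVec (b i) = ε0 (e.symm i) • b i := by
    intro i
    rw [hb, Basis.reindex_apply]
    have := hb0 (e.symm i)
    rwa [Matrix.toLin'_apply] at this
  -- the eigenvalues are powers of `ω`
  have hpow : ∀ i, ∃ k < r, (ω' : F) ^ k = ε0 (e.symm i) := by
    intro i
    haveI : NeZero r := ⟨hrpos.ne'⟩
    apply hprim.eq_pow_of_pow_eq_one
    have h1 := pow_mulVec_eig x (b i) _ (hxb i) r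
    rw [hx, Matrix.one_mulVec] at h1
    have h2 : (ε0 (e.symm i) ^ r - 1) • b i = 0 := by
      rw [sub_smul, one_smul, ← h1, sub_self]
    rcases smul_eq_zero.mp h2 with h | h
    · exact sub_eq_zero.mp h
    · exact absurd h (b.ne_zero i)
  choose k hk hkω using hpow
  -- the matrix of the basis
  set T : Matrix (Fin n) (Fin n) F := (Pi.basisFun F (Fin n)).toMatrix b with hT
  have hTapp : ∀ j i, T j i = b i j := by
    intro j i
    rw [hT, Basis.toMatrix_apply, Pi.basisFun_repr]
  have hTdet : T.det ≠ 0 := by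
    have h1 := Basis.isUnit_det (Pi.basisFun F (Fin n)) b
    rw [Basis.det_apply] at h1
    exact h1.ne_zero
  refine ⟨T, (ω' : F), fun i => ((k i : ℕ) : ZMod r), hTdet, hω, ?_⟩
  ext j i
  rw [Matrix.mul_diagonal, hTapp, ZMod.val_cast_of_lt (hk i), hkω i]
  have h1 := congrFun (hxb i) j
  rw [Pi.smul_apply, smul_eq_mul] at h1
  rw [mul_comm, ← h1, Matrix.mul_apply, Matrix.mulVec, dotProduct]
  exact Finset.sum_congr rfl (fun l _ => by rw [hTapp])

end Cfsg.Agent.Lib.Helper29.OrtDIAGR
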