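import Mathlib
import Cfsg.Agent.Lib.Helper37.OrtStmt

set_option autoImplicit false
universe u

namespace Cfsg.Agent.Lib.Helper29.OrtREFL

open Matrix

/-- `REFL` of the S5981 plan. -/
theorem main : Cfsg.Agent.Lib.Helper37.OrtStmt.Refl.{u} := by
  intro F _ n x T lam c π hT hxT hc hπ hlam hfix t ht
  obtain ⟨j₀, hj₀⟩ := hfix
  -- the inverse of `T`
  have hTu : IsUnit T.det := isUnit_iff_ne_zero.mpr hT
  have hAT : T⁻¹ * T = 1 := Matrix.nonsing_inv_mul T hTu
  have hTA : T * T⁻¹ = 1 := Matrix.mul_nonsing_inv T hTu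
  have hAdet : (T⁻¹).det * T.det = 1 := by
    rw [← Matrix.det_mul, hAT, Matrix.det_one]
  have hA0 : (T⁻¹).det ≠ 0 := by
    intro h
    rw [h, zero_mul] at hAdet
    exact zero_ne_one hAdet
  -- the sign
  have hsg : ((Equiv.Perm.sign π : ℤˣ) : F) * ((Equiv.Perm.sign π : ℤˣ) : F) = 1 := by
    rcases Int.units_eq_one_or (Equiv.Perm.sign π) with h | h <;> rw [h] <;> simp
  -- the weights
  set s : Fin n → F := fun j => if j = j₀ then ((Equiv.Perm.sign π : ℤˣ) : F) * t else 1 with hs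
  have hsπ : ∀ j, s (π j) = s j := by
    intro j
    simp only [hs]
    by_cases hj : j = j₀
    · subst hj; rw [hj₀]
    · have : π j ≠ j₀ := by
        intro h
        apply hj
        rw [← hj₀] at h
        exact π.injective h
      rw [if_neg this, if_neg hj]
  have hsprod : ∏ j, s j = ((Equiv.Perm.sign π : ℤˣ) : F) * t := by
    simp only [hs]
    rw [Finset.prod_ite_eq']
    simp
  set P : Matrix (Fin n) (Fin n) F := Matrix.diagonal s * π.permMatrix F with hP
  have hPapp : ∀ j k, P j k = if π j = k then s j else 0 := by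
    intro j k
    rw [hP, Matrix.diagonal_mul]
    simp [Equiv.Perm.permMatrix, PEquiv.toMatrix_apply, Equiv.toPEquiv_apply]
  have hPT : Pᵀ = P := by
    ext j k
    rw [Matrix.transpose_apply, hPapp, hPapp]
    by_cases h : π j = k
    · have h' : π k = j := by rw [← h, hπ]
      rw [if_pos h, if_pos h', ← h, hsπ]
    · have h' : π k ≠ j := by
        intro h2
        apply h
        rw [← h2, hπ]
      rw [if_neg h, if_neg h']
  have hPdet : P.det = t := by
    rw [hP, Matrix.det_mul, Matrix.det_diagonal, hsprod, Matrix.det_permutation]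
    calc ((Equiv.Perm.sign π : ℤˣ) : F) * t * ((Equiv.Perm.sign π : ℤˣ) : F)
        = (((Equiv.Perm.sign π : ℤˣ) : F) * ((Equiv.Perm.sign π : ℤˣ) : F)) * t := by ring
      _ = t := by rw [hsg, one_mul]
  have hDPD : Matrix.diagonal lam * P * Matrix.diagonal lam = c • P := by
    ext j k
    rw [Matrix.mul_diagonal, Matrix.diagonal_mul, Matrix.smul_apply, hPapp, smul_eq_mul]
    by_cases h : π j = k
    · rw [if_pos h, ← h, ← hlam j]; ring
    · rw [if_neg h]; ring
  -- `T⁻¹ x = D T⁻¹`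
  have hAx : T⁻¹ * x = Matrix.diagonal lam * T⁻¹ := by
    calc T⁻¹ * x = T⁻¹ * x * (T * T⁻¹) := by rw [hTA, Matrix.mul_one]
      _ = T⁻¹ * (x * T) * T⁻¹ := by simp only [Matrix.mul_assoc]
      _ = T⁻¹ * (T * Matrix.diagonal lam) * T⁻¹ := by rw [hxT]
      _ = (T⁻¹ * T) * Matrix.diagonal lam * T⁻¹ := by simp only [Matrix.mul_assoc]
      _ = Matrix.diagonal lam * T⁻¹ := by rw [hAT, Matrix.one_mul]
  refine ⟨(T⁻¹)ᵀ * P * T⁻¹, (T⁻¹).det, ?_, hA0, ?_, ?_⟩
  · rw [Matrix.transpose_mul, Matrix.transpose_mul, Matrix.transpose_transpose, hPT]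
    simp only [Matrix.mul_assoc]
  · rw [Matrix.det_mul, Matrix.det_mul, Matrix.det_transpose, hPdet]; ring
  · calc xᵀ * ((T⁻¹)ᵀ * P * T⁻¹) * x = (T⁻¹ * x)ᵀ * P * (T⁻¹ * x) := by
          rw [Matrix.transpose_mul]; simp only [Matrix.mul_assoc]
      _ = (T⁻¹)ᵀ * (Matrix.diagonal lam * P * Matrix.diagonal lam) * T⁻¹ := by
          rw [hAx, Matrix.transpose_mul, Matrix.diagonal_transpose]
          simp only [Matrix.mul_assoc]
      _ = c • ((T⁻¹)ᵀ * P * T⁻¹) := by
          rw [hDPD, Matrix.mul_smul, Matrix.smul_mul]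

end Cfsg.Agent.Lib.Helper29.OrtREFL
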