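import Mathlib
import Cfsg.Agent.Lib.Helper37.OrtStmt
import Cfsg.Agent.Lib.Helper37.InvolDiag
import Cfsg.Agent.Lib.Helper29.OrtREFL

set_option autoImplicit false
universe u

namespace Cfsg.Agent.Lib.Helper29.OrtINV2SQ

open Matrix Module

/-- `INV2SQ` of the S5981 plan. -/
theorem main : Cfsg.Agent.Lib.Helper37.OrtStmt.Inv2Sq.{u} := by
  intro F _ h2 n hn x δ hδ hxx t ht
  -- the involution `y = δ⁻¹ x`
  have hyy : (δ⁻¹ • x) * (δ⁻¹ • x) = 1 := by
    rw [Matrix.smul_mul, Matrix.mul_smul, hxx, smul_smul, smul_smul]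
    have : δ⁻¹ * δ⁻¹ * (δ * δ) = 1 := by field_simp
    rw [this, one_smul]
  obtain ⟨b, ε, hb⟩ := Cfsg.Agent.Lib.Helper37.InvolDiag.exists_eigenbasis_matrix h2
    (fun _ : Unit => δ⁻¹ • x) (fun _ _ => rfl) (fun _ => hyy)
  have hε : ∀ i, ε i () = 1 ∨ ε i () = -1 := fun i =>
    Cfsg.Agent.Lib.Helper37.InvolDiag.eps_eq_one_or (δ⁻¹ • x) hyy (b i) (b.ne_zero i) _ (hb i ())
  have hxb : ∀ i, x.mulVec (b i) = (δ * ε i ()) • b i := by
    intro i
    have h1 := hb i ()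
    have h2' : x = δ • (δ⁻¹ • x) := by
      rw [smul_smul, mul_inv_cancel₀ hδ, one_smul]
    calc x.mulVec (b i) = (δ • (δ⁻¹ • x)).mulVec (b i) := by rw [← h2']
      _ = δ • ((δ⁻¹ • x).mulVec (b i)) := by rw [Matrix.smul_mulVec]
      _ = (δ * ε i ()) • b i := by rw [h1, smul_smul]
  -- the matrix of the basis
  set T : Matrix (Fin n) (Fin n) F := (Pi.basisFun F (Fin n)).toMatrix b with hT
  have hTapp : ∀ j i, T j i = b i j := by
    intro j i
    rw [hT, Basis.toMatrix_apply, Pi.basisFun_repr]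
  have hTdet : T.det ≠ 0 := by
    have h1 := Basis.isUnit_det (Pi.basisFun F (Fin n)) b
    rw [Basis.det_apply] at h1
    exact h1.ne_zero
  have hxT : x * T = T * Matrix.diagonal (fun i => δ * ε i ()) := by
    ext j i
    rw [Matrix.mul_diagonal, hTapp]
    have h1 := congrFun (hxb i) j
    rw [Pi.smul_apply, smul_eq_mul] at h1
    rw [mul_comm, ← h1, Matrix.mul_apply, Matrix.mulVec, dotProduct]
    exact Finset.sum_congr rfl (fun k _ => by rw [hTapp])
  have hlam : ∀ j : Fin n, (δ * ε ((Equiv.refl (Fin n)) j) ()) * (δ * ε j ()) = δ * δ := by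
    intro j
    rw [Equiv.refl_apply]
    rcases hε j with h | h <;> rw [h] <;> ring
  exact Cfsg.Agent.Lib.Helper29.OrtREFL.main F n x T (fun i => δ * ε i ()) (δ * δ)
    (Equiv.refl (Fin n)) hTdet hxT (mul_ne_zero hδ hδ) (fun j => rfl) hlam
    ⟨⟨0, by omega⟩, rfl⟩ t ht

end Cfsg.Agent.Lib.Helper29.OrtINV2SQ
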