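import Mathlib
import Cfsg.Agent.Lib.Helper98.PSpStmt
import Cfsg.Agent.S1230

/-!
# Piece EVEN of S3421
-/

set_option autoImplicit false

namespace Cfsg.Agent.Lib.Helper29.PSpEVEN

open Cfsg.Agent.Lib.Helper98

universe u

theorem comm_of_sq {G : Type u} [Group G] (a b : G) (ha : a ^ 2 = 1) (hb : b ^ 2 = 1)
    (hab : (a * b) ^ 2 = 1) : a * b = b * a := by
  have h1 : a⁻¹ = a := inv_eq_of_mul_eq_one_right (by rw [← pow_two]; exact ha)
  have h2 : b⁻¹ = b := inv_eq_of_mul_eq_one_right (by rw [← pow_two]; exact hb)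
  have h3 : (a * b)⁻¹ = a * b := inv_eq_of_mul_eq_one_right (by rw [← pow_two]; exact hab)
  rw [← h3, mul_inv_rev, h1, h2]

theorem main (hE : PSpStmt.ECent.{u}) : PSpStmt.Even'.{u} := by
  intro G _ q h
  haveI := h.fin
  haveI : Fact (Nat.Prime 2) := ⟨Nat.prime_two⟩
  obtain ⟨f, hf⟩ := h.qpow
  have hq4 := h.qge
  have hf2 : 2 ≤ f := by
    by_contra hcon
    have : f = 0 ∨ f = 1 := by omega
    rcases this with rfl | rfl <;> simp at hf <;> omega
  have hqeven : Even q := by
    rw [hf]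
    exact (Nat.even_pow' (by omega)).mpr even_two
  have hodd1 : ¬ 2 ∣ (q - 1) := by
    obtain ⟨k, hk⟩ := hqeven
    omega
  have hodd2 : ¬ 2 ∣ (q + 1) := by
    obtain ⟨k, hk⟩ := hqeven
    omega
  have hodd3 : ¬ 2 ∣ (q ^ 2 - 1) := by
    obtain ⟨k, hk⟩ := hqeven
    have h1 : q ^ 2 = 2 * (2 * k * k) := by rw [hk]; ring
    have h2 : 1 ≤ q ^ 2 := Nat.one_le_pow _ _ (by omega)
    omega
  -- 2-elements have exponent 2
  have hexp : ∀ g : G, (∃ k, orderOf g = 2 ^ k) → g ^ 2 = 1 := by
    rintro g ⟨k, hk⟩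
    have hk0 : ∀ m : ℕ, ¬ 2 ∣ m → orderOf g ∣ m → g ^ 2 = 1 := by
      intro m hm hd
      have : k = 0 := by
        by_contra hk0
        apply hm
        refine dvd_trans ?_ hd
        rw [hk]
        exact dvd_pow_self 2 hk0
      rw [this, pow_zero, orderOf_eq_one_iff] at hk
      rw [hk, one_pow]
    rcases h.spec g with h1 | h1 | h1
    · exact orderOf_dvd_iff_pow_eq_one.mp h1
    · exact hk0 _ hodd1 h1
    · exact hk0 _ hodd2 h1
  let T : Sylow 2 G := default
  have hTexp : ∀ g ∈ (T : Subgroup G), g ^ 2 = 1 := by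
    intro g hg
    apply hexp
    obtain ⟨k, hk⟩ := (IsPGroup.iff_orderOf.mp T.isPGroup') ⟨g, hg⟩
    exact ⟨k, by rw [← hk, Subgroup.orderOf_mk]⟩
  have hTcard : Nat.card (T : Subgroup G) = q := by
    rw [Sylow.card_eq_multiplicity, h.card]
    have hq0 : q ≠ 0 := by omega
    have hq1 : q ^ 2 - 1 ≠ 0 := by
      have : 16 ≤ q ^ 2 := by nlinarith
      omega
    rw [Nat.factorization_mul hq0 hq1, Finsupp.add_apply,
      Nat.factorization_eq_zero_of_not_dvd hodd3, add_zero, hf,
      Nat.Prime.factorization_pow Nat.prime_two, Finsupp.single_eq_same]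
  -- not cyclic
  have hnc : ¬ IsCyclic (T : Subgroup G) := by
    intro hcyc
    obtain ⟨g, hg⟩ := hcyc.exists_generator
    have h1 : orderOf g = Nat.card (T : Subgroup G) := orderOf_eq_card_of_forall_mem_zpowers hg
    have h2 : (g : G) ^ 2 = 1 := hTexp g g.2
    have h3 : g ^ 2 = 1 := Subtype.ext h2
    have h4 : orderOf g ∣ 2 := orderOf_dvd_of_pow_eq_one h3
    rw [h1, hTcard] at h4
    have := Nat.le_of_dvd (by norm_num) h4
    omega
  -- centralizers of involutions
  have hC : ∀ t : G, orderOf t = 2 →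
      IsMulCommutative (Subgroup.centralizer ({t} : Set G)) ∧
        ∀ c ∈ Subgroup.centralizer ({t} : Set G), c ^ 2 = 1 := by
    intro t ht
    have h2 : ∀ c ∈ Subgroup.centralizer ({t} : Set G), c ^ 2 = 1 := by
      intro c hc
      apply hE G q h t c ht
      rw [Subgroup.mem_centralizer_iff] at hc
      exact (hc t rfl).symm
    refine ⟨isMulCommutative_iff.mpr ?_, h2⟩
    intro a b
    apply Subtype.ext
    exact comm_of_sq (a : G) (b : G) (h2 a a.2) (h2 b b.2) (h2 _ (a * b).2)
  -- not normal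
  have hnn : ¬ (T : Subgroup G).Normal := by
    intro hn
    obtain ⟨g, hg⟩ := h.ex
    -- a nontrivial element of `T`
    obtain ⟨t, htT, ht1⟩ : ∃ t ∈ (T : Subgroup G), t ≠ 1 := by
      by_contra hcon
      push Not at hcon
      have : (T : Subgroup G) = ⊥ := by
        rw [Subgroup.eq_bot_iff_forall]
        exact hcon
      rw [this, Subgroup.card_bot] at hTcard
      omega
    have ht2 : orderOf t = 2 := orderOf_eq_prime (hTexp t htT) ht1
    letI : Fintype ↥(T : Subgroup G) := Fintype.ofFinite _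
    have hcardT : (Finset.univ : Finset ↥(T : Subgroup G)).card < (Finset.range (q + 1)).card := by
      rw [Finset.card_univ, ← Nat.card_eq_fintype_card, hTcard, Finset.card_range]
      omega
    obtain ⟨i, hi, j, hj, hij, hfij⟩ := Finset.exists_ne_map_eq_of_card_lt_of_maps_to hcardT
      (f := fun k : ℕ => (⟨g ^ k * t * (g ^ k)⁻¹, hn.conj_mem t htT (g ^ k)⟩ : ↥(T : Subgroup G)))
      (fun k _ => Finset.mem_univ _)
    rw [Finset.mem_range] at hi hj
    have hfij' : g ^ i * t * (g ^ i)⁻¹ = g ^ j * t * (g ^ j)⁻¹ := congrArg Subtype.val hfij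
    -- wlog i < j
    have key : ∀ i j : ℕ, i < j → j < q + 1 →
        g ^ i * t * (g ^ i)⁻¹ = g ^ j * t * (g ^ j)⁻¹ → False := by
      intro i j hlt hj hEq
      have hcomm : Commute (g ^ (j - i)) t := by
        have hji : g ^ j = g ^ i * g ^ (j - i) := by
          rw [← pow_add]
          congr 1
          omega
        rw [hji] at hEq
        have h5 : t = g ^ (j - i) * t * (g ^ (j - i))⁻¹ := by
          have h6 : g ^ i * t * (g ^ i)⁻¹ =
              g ^ i * (g ^ (j - i) * t * (g ^ (j - i))⁻¹) * (g ^ i)⁻¹ := by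
            rw [hEq]
            group
          exact mul_left_cancel (mul_right_cancel h6)
        show g ^ (j - i) * t = t * g ^ (j - i)
        nth_rewrite 2 [h5]
        group
      have h7 := hE G q h t (g ^ (j - i)) ht2 hcomm
      rw [← pow_mul] at h7
      have h8 : orderOf g ∣ (j - i) * 2 := orderOf_dvd_of_pow_eq_one h7
      rw [hg] at h8
      have h9 : Nat.Coprime (q + 1) 2 := by
        rw [Nat.coprime_comm, Nat.Prime.coprime_iff_not_dvd Nat.prime_two]
        exact hodd2
      have h10 : q + 1 ∣ j - i := h9.dvd_of_dvd_mul_right h8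
      have := Nat.le_of_dvd (by omega) h10
      omega
    rcases Nat.lt_or_gt_of_ne hij with hlt | hlt
    · exact key i j hlt hj hfij'
    · exact key j i hlt hi hfij'.symm
  obtain ⟨F, hF1, hF2, hcard, hiso⟩ := Cfsg.Agent.S1230.result T hnc hnn hC
  exact ⟨F, hF1, hF2, by rw [hcard, hTcard], hiso⟩

end Cfsg.Agent.Lib.Helper29.PSpEVEN
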