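import Mathlib
import Cfsg.Agent.Lib.Helper98.PSpStmt

/-!
# Piece PAB of S3421: the Sylow `p`-subgroups are abelian
-/

set_option autoImplicit false

namespace Cfsg.Agent.Lib.Helper29.PSpPAB

open Cfsg.Agent.Lib.Helper98

universe u

theorem main (hNP : PSpStmt.NP.{u}) (hCP : PSpStmt.CP.{u}) (hCardP : PSpStmt.CardP.{u}) :
    PSpStmt.PAB.{u} := by
  intro G _ p q m₁ m₂ h P a ha b hb
  by_contra hab
  haveI := h.fin
  classical
  have hPq : Nat.card (P : Subgroup G) = q := hCardP G p q m₁ m₂ h P
  have hN2 : Nat.card (Subgroup.normalizer ((P : Subgroup G) : Set G)) * 2 = q * (q - 1) :=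
    (hNP G p q m₁ m₂ h).1 P
  have ha1 : a ≠ 1 := by
    rintro rfl
    exact hab (by rw [one_mul, mul_one])
  have hCP' : (P : Subgroup G) ⊓ Subgroup.centralizer ({a} : Set G) ≤ (P : Subgroup G) :=
    inf_le_left
  have hCne : (P : Subgroup G) ⊓ Subgroup.centralizer ({a} : Set G) ≠ (P : Subgroup G) := by
    intro hEq
    have h1 : b ∈ (P : Subgroup G) ⊓ Subgroup.centralizer ({a} : Set G) := by
      rw [hEq]
      exact hb
    exact hab (Subgroup.mem_centralizer_iff.mp h1.2 a rfl)
  -- card C * p ≤ q
  have hCcard : Nat.card ↥((P : Subgroup G) ⊓ Subgroup.centralizer ({a} : Set G)) * p ≤ q := by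
    have hdvd : Nat.card ↥((P : Subgroup G) ⊓ Subgroup.centralizer ({a} : Set G)) ∣
        Nat.card (P : Subgroup G) := Subgroup.card_dvd_of_le hCP'
    obtain ⟨f, hf⟩ := h.qpow
    rw [hPq, hf] at hdvd
    obtain ⟨j, hj, hcj⟩ := (Nat.dvd_prime_pow h.pp).mp hdvd
    have hjf : j < f := by
      rcases Nat.lt_or_ge j f with h1 | h1
      · exact h1
      · exfalso
        have hjf' : j = f := le_antisymm hj h1
        apply hCne
        apply Subgroup.eq_of_le_of_card_ge hCP'
        rw [hPq, hcj, hf, hjf']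
    rw [hcj, hf, ← pow_succ]
    exact Nat.pow_le_pow_right h.pp.pos hjf
  -- counting
  letI : Fintype ↥(Subgroup.normalizer ((P : Subgroup G) : Set G)) := Fintype.ofFinite _
  letI : Fintype ↥(P : Subgroup G) := Fintype.ofFinite _
  letI : Fintype G := Fintype.ofFinite _
  have hconj : ∀ n : ↥(Subgroup.normalizer ((P : Subgroup G) : Set G)),
      (n : G) * a * (n : G)⁻¹ ∈ (P : Subgroup G) :=
    fun n => (Subgroup.mem_normalizer_iff.mp n.2 a).mp ha
  have hle : Fintype.card ↥(Subgroup.normalizer ((P : Subgroup G) : Set G)) ≤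
      Nat.card ↥((P : Subgroup G) ⊓ Subgroup.centralizer ({a} : Set G)) * (q - 1) := by
    rw [← Finset.card_univ]
    have hcard1 : ((Finset.univ : Finset ↥(P : Subgroup G)).erase 1).card = q - 1 := by
      rw [Finset.card_erase_of_mem (Finset.mem_univ _), Finset.card_univ,
        ← Nat.card_eq_fintype_card, hPq]
    rw [← hcard1]
    apply Finset.card_le_mul_card_image_of_maps_to
      (f := fun n : ↥(Subgroup.normalizer ((P : Subgroup G) : Set G)) =>
        (⟨(n : G) * a * (n : G)⁻¹, hconj n⟩ : ↥(P : Subgroup G)))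
    · intro n _
      rw [Finset.mem_erase]
      refine ⟨?_, Finset.mem_univ _⟩
      intro h1
      have h2 : (n : G) * a * (n : G)⁻¹ = 1 := congrArg Subtype.val h1
      apply ha1
      have h3 : a = (n : G)⁻¹ * ((n : G) * a * (n : G)⁻¹) * (n : G) := by group
      rw [h3, h2]
      group
    · intro y _
      by_cases hy : ∃ n₀ : ↥(Subgroup.normalizer ((P : Subgroup G) : Set G)),
          (⟨(n₀ : G) * a * (n₀ : G)⁻¹, hconj n₀⟩ : ↥(P : Subgroup G)) = y
      · obtain ⟨n₀, hn₀⟩ := hy
        have hcardC : Nat.card ↥((P : Subgroup G) ⊓ Subgroup.centralizer ({a} : Set G)) =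
            (Finset.univ.filter (fun g : G =>
              g ∈ (P : Subgroup G) ⊓ Subgroup.centralizer ({a} : Set G))).card := by
          rw [Nat.card_eq_fintype_card, Fintype.card_subtype]
        rw [hcardC]
        apply Finset.card_le_card_of_injOn
          (fun n : ↥(Subgroup.normalizer ((P : Subgroup G) : Set G)) => (n₀ : G)⁻¹ * (n : G))
        · intro n hn
          rw [Finset.mem_coe, Finset.mem_filter] at hn
          have h1 : (n : G) * a * (n : G)⁻¹ = (n₀ : G) * a * (n₀ : G)⁻¹ := by
            have := hn.2.trans hn₀.symm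
            exact congrArg Subtype.val this
          have hcomm : Commute ((n₀ : G)⁻¹ * (n : G)) a := by
            show (n₀ : G)⁻¹ * (n : G) * a = a * ((n₀ : G)⁻¹ * (n : G))
            have h2 : (n : G) * a = (n₀ : G) * a * (n₀ : G)⁻¹ * (n : G) := by
              rw [← h1]
              group
            rw [mul_assoc, h2]
            group
          rw [Finset.mem_coe, Finset.mem_filter]
          refine ⟨Finset.mem_univ _,
            Subgroup.mem_inf.mpr ⟨hCP G p q m₁ m₂ h P a _ ha ha1 hcomm, ?_⟩⟩
          rw [Subgroup.mem_centralizer_iff]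
          intro x hx
          rw [Set.mem_singleton_iff] at hx
          rw [hx]
          exact hcomm.eq.symm
        · intro n _ n' _ hnn
          have : (n : G) = (n' : G) := mul_left_cancel hnn
          exact Subtype.ext this
      · have hempty : (Finset.univ.filter
            (fun n : ↥(Subgroup.normalizer ((P : Subgroup G) : Set G)) =>
              (⟨(n : G) * a * (n : G)⁻¹, hconj n⟩ : ↥(P : Subgroup G)) = y)) = ∅ := by
          rw [Finset.filter_eq_empty_iff]
          intro n _ hn
          exact hy ⟨n, hn⟩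
        rw [hempty, Finset.card_empty]
        exact Nat.zero_le _
  -- arithmetic
  rw [Nat.card_eq_fintype_card] at hN2
  have hp3 : 3 ≤ p := by
    have := h.pp.two_le
    have := h.podd
    omega
  have hq5 := h.q_ge
  have hc1 : 1 ≤ Nat.card ↥((P : Subgroup G) ⊓ Subgroup.centralizer ({a} : Set G)) :=
    Nat.card_pos
  obtain ⟨r, hr⟩ : ∃ r, q = r + 1 := ⟨q - 1, by omega⟩
  rw [hr] at hN2 hle hCcard
  rw [Nat.add_sub_cancel] at hN2 hle
  have hr4 : 4 ≤ r := by omega
  nlinarith

end Cfsg.Agent.Lib.Helper29.PSpPAB
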