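import Mathlib
import Cfsg.Agent.Lib.Helper46.PsuStmt
import Cfsg.Agent.Lib.Helper97.PslP1

/-!
# S5172 (helper29): basic facts on `Ubar` used by the pieces DSYP and DNGP
-/

set_option autoImplicit false

namespace Cfsg.Agent.Lib.Helper29.PsuBase

open Matrix Cfsg.Agent.Lib.Helper43.SUBase Cfsg.Agent.H84.PslDefs
  Cfsg.Agent.Lib.Helper46.PsuDefs

universe u

/-- the upper unitriangular group is a `p`-group -/
theorem isPGroup_Uni (n : ℕ) (K : Type u) [Field K] [Fintype K] (p : ℕ) [Fact p.Prime]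
    [CharP K p] : IsPGroup p (Uni n K) := by
  classical
  obtain ⟨f, -, hf⟩ := FiniteField.card K p
  have hU : Nat.card (Uni n K) = Fintype.card K ^ (n * (n - 1) / 2) :=
    Cfsg.Agent.Lib.Helper97.PslP1.card_Uni n K
  exact IsPGroup.of_card (n := (f : ℕ) * (n * (n - 1) / 2)) (by rw [hU, hf, pow_mul])

/-- `Ubar` is a `p`-group -/
theorem isPGroup_Ubar (n : ℕ) (K : Type u) [Field K] [Fintype K] (p : ℕ) [Fact p.Prime]
    [CharP K p] (q : ℕ) (D : QD K q) : IsPGroup p (Ubar D n) := by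
  have h1 : IsPGroup p (UJ D n) := (isPGroup_Uni n K p).to_le inf_le_right
  have h2 : IsPGroup p ((UJ D n).subgroupOf (GJ D n)) :=
    h1.comap_of_injective (GJ D n).subtype (Subgroup.subtype_injective _)
  exact h2.map (prJ D n)

theorem mem_Ubar {n : ℕ} {K : Type u} [Field K] {q : ℕ} (D : QD K q) (y : PGJ D n) :
    y ∈ Ubar D n ↔
      ∃ x : ↥(GJ D n), (x : SpecialLinearGroup (Fin n) K) ∈ UJ D n ∧ prJ D n x = y :=
  Iff.rfl

theorem prJ_mem_Ubar {n : ℕ} {K : Type u} [Field K] {q : ℕ} (D : QD K q) (x : ↥(GJ D n))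
    (hx : (x : SpecialLinearGroup (Fin n) K) ∈ UJ D n) : prJ D n x ∈ Ubar D n :=
  ⟨x, hx, rfl⟩

instance finite_PGJ {n : ℕ} {K : Type u} [Field K] [Fintype K] {q : ℕ} (D : QD K q) :
    Finite (PGJ D n) := by
  classical
  haveI : Finite (SpecialLinearGroup (Fin n) K) := inferInstance
  haveI : Finite ↥(GJ D n) := inferInstance
  exact inferInstance

end Cfsg.Agent.Lib.Helper29.PsuBase
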