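import Mathlib
import Cfsg.Agent.Lib.Helper46.PsuStmt

/-!
# S5172, piece DCLP (helper29): `DataClosed` from `ClosedJ`
-/

set_option autoImplicit false

namespace Cfsg.Agent.Lib.Helper29.PsuDCLP

open Matrix Cfsg.Agent.Lib.Helper43.SUBase Cfsg.Agent.H84.PslDefs
  Cfsg.Agent.Lib.Helper46.PsuDefs

universe u

/-- **[DCLP]** `DataClosed` from `ClosedJ`: pull `T` back to `UJ` -/
theorem main : Cfsg.Agent.Lib.Helper46.PsuStmt.DataClosedOfParts.{u} := by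
  intro hCJ n K _ _ p _ _ q D hn T hT hne hcl
  set T' : Subgroup (SpecialLinearGroup (Fin n) K) :=
    ((T.comap (prJ D n)) ⊓ ((UJ D n).subgroupOf (GJ D n))).map (GJ D n).subtype with hT'
  have hmem : ∀ x : SpecialLinearGroup (Fin n) K, x ∈ T' ↔
      ∃ h : x ∈ GJ D n, x ∈ UJ D n ∧ prJ D n ⟨x, h⟩ ∈ T := by
    intro x
    constructor
    · rintro ⟨y, ⟨hy1, hy2⟩, rfl⟩
      exact ⟨y.2, hy2, hy1⟩
    · rintro ⟨h, hx1, hx2⟩
      exact ⟨⟨x, h⟩, ⟨hx2, hx1⟩, rfl⟩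
  have h1 : T' ≤ UJ D n := by
    intro x hx
    obtain ⟨_, h, _⟩ := (hmem x).1 hx
    exact h
  have h2 : T' ≠ ⊥ := by
    intro hbot
    apply hne
    rw [Subgroup.eq_bot_iff_forall]
    intro t ht
    obtain ⟨x, hx, rfl⟩ := hT ht
    have hx' : (x : SpecialLinearGroup (Fin n) K) ∈ T' := (hmem _).2 ⟨x.2, hx, ht⟩
    rw [hbot, Subgroup.mem_bot] at hx'
    have hx1 : x = 1 := Subtype.ext hx'
    rw [hx1, map_one]
  have h3 : ∀ t ∈ T', ∀ g ∈ GJ D n, g * t * g⁻¹ ∈ UJ D n → g * t * g⁻¹ ∈ T' := by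
    intro t ht g hg hgt
    obtain ⟨htG, htU, htT⟩ := (hmem t).1 ht
    have hG : g * t * g⁻¹ ∈ GJ D n :=
      (GJ D n).mul_mem ((GJ D n).mul_mem hg htG) ((GJ D n).inv_mem hg)
    refine (hmem _).2 ⟨hG, hgt, ?_⟩
    have e : (⟨g * t * g⁻¹, hG⟩ : ↥(GJ D n)) = ⟨g, hg⟩ * ⟨t, htG⟩ * ⟨g, hg⟩⁻¹ := rfl
    rw [e, map_mul, map_mul, map_inv]
    apply hcl _ htT
    rw [← map_inv, ← map_mul, ← map_mul]
    exact ⟨_, hgt, rfl⟩
  have h4 := hCJ n K p q D hn T' h1 h2 h3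
  apply le_antisymm hT
  rintro _ ⟨x, hx, rfl⟩
  have hx' : (x : SpecialLinearGroup (Fin n) K) ∈ T' := by rw [h4]; exact hx
  obtain ⟨_, _, h5⟩ := (hmem _).1 hx'
  exact h5

end Cfsg.Agent.Lib.Helper29.PsuDCLP
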