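import Mathlib
import Cfsg.Agent.Lib.Helper46.PsuStmt
import Cfsg.Agent.Lib.Helper29.PsuBase

/-!
# S5172, piece DNGP (helper29): `DataNormGen` from its parts
-/

set_option autoImplicit false

namespace Cfsg.Agent.Lib.Helper29.PsuDNGP

open Matrix Cfsg.Agent.Lib.Helper43.SUBase Cfsg.Agent.H84.PslDefs
  Cfsg.Agent.Lib.Helper46.PsuDefs Cfsg.Agent.Lib.Helper29.PsuBase

universe u

/-- **[DNGP]** the `norm_gen` field of `CritData`, from `NormBorel`, `DataRad`, `DataTorus` -/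
theorem main : Cfsg.Agent.Lib.Helper46.PsuStmt.DataNormGenOfParts.{u} := by
  intro hNB hDR hDT n K _ _ p _ _ q D hn x hx
  have hp : p.Prime := Fact.out
  obtain ⟨t, u, ht, hu, rfl⟩ := hNB n K q D hn x hx
  rw [map_mul]
  refine Subgroup.mul_mem _ (hDT n K p q D hn t ht) (Subgroup.subset_closure ?_)
  have huU : prJ D n u ∈ Ubar D n := prJ_mem_Ubar D u hu
  have hQ : QWbar D n ∈ Rset D n := Or.inl rfl
  refine ⟨Subgroup.le_normalizer huU, QWbar D n, hQ, Subgroup.subset_closure ⟨?_, ?_⟩⟩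
  · rw [Subgroup.mem_normalizer_iff]
    intro r
    obtain ⟨_, hnorm⟩ := hDR n K q D hn _ hQ
    constructor
    · intro hr; exact hnorm _ huU r hr
    · intro hr
      have h1 := hnorm _ (inv_mem huU) _ hr
      have e : (prJ D n u)⁻¹ * (prJ D n u * r * (prJ D n u)⁻¹) * (prJ D n u)⁻¹⁻¹ = r := by group
      rw [e] at h1
      exact h1
  · obtain ⟨e, he⟩ := (isPGroup_Ubar n K p q D) ⟨prJ D n u, huU⟩
    have he' : (prJ D n u) ^ (p ^ e) = 1 := by
      have := congrArg Subtype.val he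
      simpa using this
    obtain ⟨e', -, he''⟩ := (Nat.dvd_prime_pow hp).1 (orderOf_dvd_of_pow_eq_one he')
    exact ⟨e', he''⟩

end Cfsg.Agent.Lib.Helper29.PsuDNGP
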