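import Mathlib
import Cfsg.Agent.Lib.Helper46.PsuStmt
import Cfsg.Agent.Lib.Helper29.PsuBase

/-!
# S5172, piece DSYP (helper29): `DataSylow` from its parts
-/

set_option autoImplicit false

namespace Cfsg.Agent.Lib.Helper29.PsuDSYP

open Matrix Cfsg.Agent.Lib.Helper43.SUBase Cfsg.Agent.H84.PslDefs
  Cfsg.Agent.Lib.Helper46.PsuDefs Cfsg.Agent.Lib.Helper29.PsuBase

universe u

/-- **[DSYP]** `Ubar` is a Sylow `p`-subgroup of `PGJ`, from `SylowOfNormPow`, `NormBorel`,
`DiagBasic` -/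
theorem main : Cfsg.Agent.Lib.Helper46.PsuStmt.DataSylowOfParts.{u} := by
  intro hS hNB hDB n K _ _ p _ _ q D hn
  classical
  have hp : p.Prime := Fact.out
  obtain ⟨f, -, hf⟩ := FiniteField.card K p
  have hm : ¬ p ∣ (Fintype.card K - 1) := by
    intro hd
    have h1 : p ∣ Fintype.card K := by rw [hf]; exact dvd_pow_self p f.pos.ne'
    have h2 : 0 < Fintype.card K := Fintype.card_pos
    have h3 : p ∣ 1 := by
      have h4 := Nat.dvd_sub h1 hd
      rwa [Nat.sub_sub_self h2] at h4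
    exact hp.one_lt.ne' (Nat.dvd_one.1 h3)
  refine hS p (Ubar D n) (Fintype.card K - 1) (isPGroup_Ubar n K p q D) hm ?_
  intro x hx
  obtain ⟨t, u, ht, hu, rfl⟩ := hNB n K q D hn x hx
  obtain ⟨hconj, hpow⟩ := hDB n K (t : SpecialLinearGroup (Fin n) K) ht
  have key : ∀ k : ℕ, ∃ v ∈ Uni n K,
      ((t : SpecialLinearGroup (Fin n) K) * (u : SpecialLinearGroup (Fin n) K)) ^ k =
        v * (t : SpecialLinearGroup (Fin n) K) ^ k := by
    intro k
    induction k with
    | zero => exact ⟨1, one_mem _, by simp⟩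
    | succ k ih =>
      obtain ⟨v, hv, hk⟩ := ih
      refine ⟨(t : SpecialLinearGroup (Fin n) K) * ((u : SpecialLinearGroup (Fin n) K) * v) *
        (t : SpecialLinearGroup (Fin n) K)⁻¹, hconj _ (mul_mem hu.2 hv), ?_⟩
      rw [pow_succ', hk, pow_succ']
      group
  obtain ⟨v, hv, hk⟩ := key (Fintype.card K - 1)
  rw [hpow, mul_one] at hk
  rw [← map_pow]
  refine prJ_mem_Ubar D _ ?_
  have hG : (((t * u) ^ (Fintype.card K - 1) : ↥(GJ D n)) : SpecialLinearGroup (Fin n) K) ∈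
      GJ D n := ((t * u) ^ (Fintype.card K - 1) : ↥(GJ D n)).2
  refine ⟨hG, ?_⟩
  have e : (((t * u) ^ (Fintype.card K - 1) : ↥(GJ D n)) : SpecialLinearGroup (Fin n) K) =
      ((t : SpecialLinearGroup (Fin n) K) * (u : SpecialLinearGroup (Fin n) K)) ^
        (Fintype.card K - 1) := rfl
  rw [e, hk]
  exact hv

end Cfsg.Agent.Lib.Helper29.PsuDSYP
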