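import Mathlib
import Cfsg.Agent.Lib.Helper46.PsuStmt

/-!
# S5172, piece MEQ (helper29): `CritData` is transported by group isomorphisms
-/

set_option autoImplicit false

namespace Cfsg.Agent.Lib.Helper29.PsuMEQ

open Cfsg.Agent.Lib.Helper52.SpStmt

universe u

lemma map_mem_normalizer' {G G' : Type*} [Group G] [Group G'] (φ : G ≃* G') (R : Subgroup G)
    (k : G) (hk : k ∈ Subgroup.normalizer (R : Set G)) :
    φ k ∈ Subgroup.normalizer ((R.map φ.toMonoidHom : Subgroup G') : Set G') := by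
  rw [Subgroup.mem_normalizer_iff] at hk ⊢
  intro x
  constructor
  · rintro ⟨x', hx', rfl⟩
    exact ⟨k * x' * k⁻¹, (hk x').1 hx', by simp⟩
  · rintro ⟨y, hy, hyx⟩
    refine ⟨k⁻¹ * y * k, ?_, ?_⟩
    · apply (hk (k⁻¹ * y * k)).2
      have e : k * (k⁻¹ * y * k) * k⁻¹ = y := by group
      rw [e]; exact hy
    · have e : φ.toMonoidHom (k⁻¹ * y * k) = (φ k)⁻¹ * φ y * φ k := by simp
      rw [e]
      have hyx' : φ y = φ k * x * (φ k)⁻¹ := hyx
      rw [hyx']
      group

lemma map_symm_map' {G G' : Type*} [Group G] [Group G'] (φ : G ≃* G') (R : Subgroup G) :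
    (R.map φ.toMonoidHom).map φ.symm.toMonoidHom = R := by
  ext x
  constructor
  · rintro ⟨_, ⟨y, hy, rfl⟩, rfl⟩
    simpa using hy
  · intro hx
    exact ⟨φ x, ⟨x, hx, rfl⟩, by simp⟩

/-- transport of `CritData` along an isomorphism -/
theorem map_equiv' {G G' : Type u} [Group G] [Group G'] {p : ℕ} {S : Subgroup G}
    {ℛ : Set (Subgroup G)} (h : CritData p S ℛ) (φ : G ≃* G') :
    CritData p (S.map φ.toMonoidHom)
      ((fun R : Subgroup G => R.map φ.toMonoidHom) '' ℛ) where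
  ne_bot := by
    rw [Ne, Subgroup.map_eq_bot_iff_of_injective S φ.injective]
    exact h.ne_bot
  closed := by
    intro T hT hne hcl
    have hT' : T.comap φ.toMonoidHom ≤ S := by
      intro x hx
      obtain ⟨y, hy, hyx⟩ := hT hx
      have : y = x := φ.injective hyx
      rw [← this]; exact hy
    have hne' : T.comap φ.toMonoidHom ≠ ⊥ := by
      intro hbot
      apply hne
      rw [Subgroup.eq_bot_iff_forall] at hbot ⊢
      intro x hx
      have h1 := hbot (φ.symm x) (by show φ (φ.symm x) ∈ T; simpa using hx)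
      have h2 := congrArg φ h1
      simpa using h2
    have hcl' : ∀ t ∈ T.comap φ.toMonoidHom, ∀ k : G, k * t * k⁻¹ ∈ S →
        k * t * k⁻¹ ∈ T.comap φ.toMonoidHom := by
      intro t ht k hk
      show φ (k * t * k⁻¹) ∈ T
      rw [map_mul, map_mul, map_inv]
      apply hcl _ ht
      refine ⟨k * t * k⁻¹, hk, ?_⟩
      show φ (k * t * k⁻¹) = _
      rw [map_mul, map_mul, map_inv]
      rfl
    have h1 := h.closed _ hT' hne' hcl'
    apply le_antisymm hT
    rintro _ ⟨s, hs, rfl⟩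
    have hs' : s ∈ T.comap φ.toMonoidHom := by rw [h1]; exact hs
    exact hs'
  rad_le := by
    rintro _ ⟨R, hR, rfl⟩
    exact Subgroup.map_mono (h.rad_le R hR)
  rad_normal := by
    rintro _ ⟨R, hR, rfl⟩ _ ⟨s, hs, rfl⟩ _ ⟨r, hr, rfl⟩
    exact ⟨s * r * s⁻¹, h.rad_normal R hR s hs r hr, by simp⟩
  rad_cent := by
    rintro _ ⟨R, hR, rfl⟩ k hk
    have h1 : φ.symm k ∈ R := by
      apply h.rad_cent R hR
      intro r hr
      apply φ.injective
      rw [map_mul, map_mul, MulEquiv.apply_symm_apply]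
      exact hk _ ⟨r, hr, rfl⟩
    exact ⟨φ.symm k, h1, by simp⟩
  rad_opp := by
    rintro _ ⟨R, hR, rfl⟩
    obtain ⟨n, hn, hnx⟩ := h.rad_opp R hR
    refine ⟨φ n, map_mem_normalizer' φ R n hn, ?_⟩
    rintro _ ⟨x, hx, rfl⟩ hx2
    refine ⟨x, hnx x hx ?_, rfl⟩
    obtain ⟨y, hy, hyx⟩ := hx2
    have e : y = n * x * n⁻¹ := by
      apply φ.injective
      rw [map_mul, map_mul, map_inv]
      exact hyx
    rw [← e]; exact hy
  norm_gen := by
    intro k hk
    have hk' : φ.symm k ∈ Subgroup.normalizer (S : Set G) := by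
      have := map_mem_normalizer' φ.symm (S.map φ.toMonoidHom) k hk
      rwa [map_symm_map'] at this
    have h1 := h.norm_gen hk'
    have h2 : φ (φ.symm k) ∈ (Subgroup.closure {h' : G | h' ∈ Subgroup.normalizer (S : Set G) ∧
        ∃ R ∈ ℛ, h' ∈ Subgroup.closure {k : G | k ∈ Subgroup.normalizer (R : Set G) ∧
          ∃ e : ℕ, orderOf k = p ^ e}}).map φ.toMonoidHom := ⟨_, h1, rfl⟩
    rw [MulEquiv.apply_symm_apply, MonoidHom.map_closure] at h2
    refine Subgroup.closure_mono ?_ h2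
    rintro _ ⟨h', ⟨hh'N, R, hR, hh'R⟩, rfl⟩
    refine ⟨map_mem_normalizer' φ S h' hh'N, R.map φ.toMonoidHom, ⟨R, hR, rfl⟩, ?_⟩
    have h3 : φ h' ∈ (Subgroup.closure {k : G | k ∈ Subgroup.normalizer (R : Set G) ∧
        ∃ e : ℕ, orderOf k = p ^ e}).map φ.toMonoidHom := ⟨_, hh'R, rfl⟩
    rw [MonoidHom.map_closure] at h3
    refine Subgroup.closure_mono ?_ h3
    rintro _ ⟨k', ⟨hk'N, e, he⟩, rfl⟩
    refine ⟨map_mem_normalizer' φ R k' hk'N, e, ?_⟩
    rw [← he]
    exact MulEquiv.orderOf_eq φ k'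

/-- **[MEQ]** the data is transported by group isomorphisms -/
theorem main : Cfsg.Agent.Lib.Helper46.PsuStmt.MapEquiv.{u} := by
  intro G G' _ _ e p S ℛ h
  exact map_equiv' h e

end Cfsg.Agent.Lib.Helper29.PsuMEQ
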