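import Mathlib
import Cfsg.Agent.Lib.Helper9.S51IStmt

/-!
# S1351 / XORDQ (call by helper9)

An element of order `q` of `L` commuting with `z` lies in `⟨z⟩` (`q ∈ τ₁(L)`: `L` has `q`-rank 1).
-/

set_option autoImplicit false

universe u

namespace Cfsg.Agent.Lib.Helper29.S51XORDQ

open Cfsg Cfsg.Agent.Lib.Helper9.S51IStmt

theorem main : XOrdQ.{u} := by
  intro G _ _ _ L F z q hT b hbL hbq hbz
  obtain ⟨hqp, -, -, -, hrk⟩ := hT.hq
  have hzL : z ∈ L := hT.hF.1 hT.hz
  obtain ⟨z', hz'⟩ : ∃ z' : L, (z' : G) = z := ⟨⟨z, hzL⟩, rfl⟩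
  obtain ⟨b', hb'⟩ : ∃ b' : L, (b' : G) = b := ⟨⟨b, hbL⟩, rfl⟩
  have hzq : z' ^ q = 1 := by
    apply Subtype.ext
    rw [Subgroup.coe_pow, hz', ← hT.hzo, pow_orderOf_eq_one]
    rfl
  have hbq' : b' ^ q = 1 := by
    apply Subtype.ext
    rw [Subgroup.coe_pow, hb', ← hbq, pow_orderOf_eq_one]
    rfl
  have hcomm : ∀ x ∈ ({z', b'} : Set L), ∀ y ∈ ({z', b'} : Set L), x * y = y * x := by
    have h1 : b' * z' = z' * b' := by
      apply Subtype.ext
      rw [Subgroup.coe_mul, Subgroup.coe_mul, hz', hb', hbz]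
    rintro x (rfl | rfl) y (rfl | rfl)
    · rfl
    · exact h1.symm
    · exact h1
    · rfl
  have hA : IsMulCommutative (Subgroup.closure ({z', b'} : Set L)) :=
    Subgroup.isMulCommutative_closure hcomm
  have hexp : ∀ a ∈ Subgroup.closure ({z', b'} : Set L), a ^ q = 1 := by
    intro a ha
    induction ha using Subgroup.closure_induction with
    | mem x hx =>
      rcases hx with rfl | rfl
      · exact hzq
      · exact hbq'
    | one => exact one_pow q
    | mul x y hx hy ihx ihy =>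
      have hc : Commute x y := setLike_mul_comm hx hy
      rw [hc.mul_pow, ihx, ihy, one_mul]
    | inv x hx ih => rw [inv_pow, ih, inv_one]
  have hcard : Nat.card (Subgroup.closure ({z', b'} : Set L)) ≤ q ^ 1 := hrk _ hA hexp
  have hle : Subgroup.zpowers z' ≤ Subgroup.closure ({z', b'} : Set L) := by
    rw [Subgroup.zpowers_le]
    exact Subgroup.subset_closure (by simp)
  have hzo : Nat.card (Subgroup.zpowers z') = q := by
    rw [Nat.card_zpowers, ← hT.hzo, ← hz', Subgroup.orderOf_coe]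
  have heq : Subgroup.zpowers z' = Subgroup.closure ({z', b'} : Set L) := by
    apply Subgroup.eq_of_le_of_card_ge hle
    rw [hzo]
    simpa using hcard
  have hbmem : b' ∈ Subgroup.zpowers z' := by
    rw [heq]
    exact Subgroup.subset_closure (by simp)
  obtain ⟨k, hk⟩ := Subgroup.mem_zpowers_iff.mp hbmem
  refine Subgroup.mem_zpowers_iff.mpr ⟨k, ?_⟩
  rw [← hz', ← hb', ← hk]
  simp

end Cfsg.Agent.Lib.Helper29.S51XORDQ
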