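import Mathlib
import Cfsg.Agent.Lib.Helper40.SFStmt

/-!
# S5664 / START (call by helper40)

A non-spread-preserving `g` gives `(v, u)` with `1 ≤ rk g v u ≤ r - 1`.
-/

set_option autoImplicit false

universe u

namespace Cfsg.Agent.Lib.Helper29.SFSTART

open Cfsg.Agent.Lib.Helper40.SFStmt

theorem main (h : Sep.{u}) : Start.{u} := by
  intro F L _ _ _ _ n g hns
  push Not at hns
  obtain ⟨x, a, hxa⟩ := hns
  obtain ⟨u, hu0, hu1⟩ := h L n (g x) (g (a • x)) hxa
  refine ⟨x, u, ?_, ?_⟩
  · unfold rk
    have hne : theta g x u a ≠ 0 := by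
      rw [theta_apply]
      exact hu1
    have hr : LinearMap.range (theta g x u) ≠ ⊥ := by
      intro hb
      apply hne
      have hm : theta g x u a ∈ LinearMap.range (theta g x u) := LinearMap.mem_range_self _ a
      rw [hb] at hm
      exact (Submodule.mem_bot F).mp hm
    exact Nat.one_le_iff_ne_zero.mpr (fun h0 => hr (Submodule.finrank_eq_zero.mp h0))
  · unfold rk
    have hk : (1 : L) ∈ LinearMap.ker (theta g x u) := by
      rw [LinearMap.mem_ker, theta_apply, one_smul]
      exact hu0
    have hker : 1 ≤ Module.finrank F (LinearMap.ker (theta g x u)) := by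
      have hr : LinearMap.ker (theta g x u) ≠ ⊥ := by
        intro hb
        rw [hb] at hk
        exact one_ne_zero ((Submodule.mem_bot F).mp hk)
      exact Nat.one_le_iff_ne_zero.mpr (fun h0 => hr (Submodule.finrank_eq_zero.mp h0))
    have hrn := LinearMap.finrank_range_add_finrank_ker (theta g x u)
    omega

end Cfsg.Agent.Lib.Helper29.SFSTART
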