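import Mathlib
import Cfsg.Agent.Lib.Helper40.SFStmt
import Cfsg.Agent.Lib.Helper94.SympStd
import Cfsg.Agent.Lib.Helper94.SympAbs

/-!
# S5664 / TRANS (call by helper40)

The `L`-linear isometries of the standard symplectic form are transitive on nonzero vectors.
-/

set_option autoImplicit false

universe u

open scoped Matrix

namespace Cfsg.Agent.Lib.Helper29.SFTRANS

open Cfsg.Agent.Lib.Helper40.SFStmt

theorem main : Trans.{u} := by
  intro L _ n x y hx hy
  classical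
  obtain ⟨h, -, hiso, hxy⟩ := Cfsg.Agent.Lib.Helper94.SympAbs.exists_map
    (Cfsg.Agent.Lib.Helper94.SympStd.sympForm_isSymplectic (F := L) (m := n)) x y hx hy
  have h1 : Matrix.toLin' (h : Matrix (Fin n ⊕ Fin n) (Fin n ⊕ Fin n) L) ∘ₗ
      Matrix.toLin' ((h⁻¹ : Matrix.GeneralLinearGroup (Fin n ⊕ Fin n) L) :
        Matrix (Fin n ⊕ Fin n) (Fin n ⊕ Fin n) L) = LinearMap.id := by
    rw [← Matrix.toLin'_mul, ← Units.val_mul, mul_inv_cancel, Units.val_one, Matrix.toLin'_one]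
  have h2 : Matrix.toLin' ((h⁻¹ : Matrix.GeneralLinearGroup (Fin n ⊕ Fin n) L) :
        Matrix (Fin n ⊕ Fin n) (Fin n ⊕ Fin n) L) ∘ₗ
      Matrix.toLin' (h : Matrix (Fin n ⊕ Fin n) (Fin n ⊕ Fin n) L) = LinearMap.id := by
    rw [← Matrix.toLin'_mul, ← Units.val_mul, inv_mul_cancel, Units.val_one, Matrix.toLin'_one]
  refine ⟨LinearEquiv.ofLinearMap _ _ h1 h2, ?_, ?_⟩
  · intro a b
    rw [LinearEquiv.coe_ofLinearMap, Matrix.toLin'_apply, Matrix.toLin'_apply]
    exact hiso a b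
  · rw [LinearEquiv.coe_ofLinearMap, Matrix.toLin'_apply]
    exact hxy

end Cfsg.Agent.Lib.Helper29.SFTRANS
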