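import Mathlib
import Cfsg.Agent.Lib.Helper41.SpFStmt
import Cfsg.Agent.Lib.Helper40.FExtOdd

set_option autoImplicit false
universe u

namespace Cfsg.Agent.Lib.Helper29.SpFELT

open Matrix Polynomial UniqueFactorizationMonoid
open Cfsg.Agent.Lib.Helper40.SympConj Cfsg.Agent.Lib.Helper40.FExt
  Cfsg.Agent.Lib.Helper40.FExtIdx Cfsg.Agent.Lib.Helper40.InvDims
  Cfsg.Agent.Lib.Helper40.SSConj Cfsg.Agent.Lib.Helper40.SpPoly
  Cfsg.Agent.Lib.Helper40.SpElt Cfsg.Agent.Lib.Helper13.SympMat Cfsg.Agent.Lib.Helper40.SpTI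
  Cfsg.Agent.Lib.Helper40.FExtOdd

/-- `ELT` of the S5975 plan (adapted from `Helper40.FExtOdd.odd_witness`). -/
theorem main : Cfsg.Agent.Lib.Helper41.SpFStmt.Elt.{u} := by
  intro F _ _ p _ _ q hF d hd r _ hr2 hrp i hiq hcases
  classical
  have hr : r.Prime := Fact.out
  have hpp : p.Prime := Fact.out
  have hrq : ¬ r ∣ q := by
    obtain ⟨n, -, hn⟩ := FiniteField.card F p
    rw [hF] at hn
    intro h
    rw [hn] at h
    exact hrp ((Nat.prime_dvd_prime_iff_eq hr hpp).mp (hr.dvd_of_dvd_pow h))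
  have hi : i = orderOf ((Fintype.card F : ℕ) : ZMod r) := by rw [hiq, hF]
  have hipos : 0 < i := by
    rw [hiq]
    exact Cfsg.Agent.Lib.Helper40.CycloVal.order_pos q r hrq
  obtain ⟨t', ht'⟩ : ∃ t', t' * i = r - 1 := by
    have h1 := Cfsg.Agent.Lib.Helper40.PrimeFix.order_dvd (F := F) (p := p) r hrp
    rw [← hi] at h1
    obtain ⟨c, hc⟩ := h1
    exact ⟨c, by rw [hc, mul_comm]⟩
  obtain ⟨T, hTcard, hLT, hT, hpar, hTs, hTdvd⟩ :=
    cyclo_star_facts (F := F) (p := p) r i t' hr hr2 hrp hi ht'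
  have ht'pos : 0 < t' := by
    rcases Nat.eq_zero_or_pos t' with h | h
    · subst h
      rw [zero_mul] at ht'
      have h2 := hr.two_le
      omega
    · exact h
  obtain ⟨P₀, hP₀⟩ : ∃ P₀, P₀ ∈ T := Finset.card_pos.mp (by rw [hTcard]; exact ht'pos)
  obtain ⟨hP₀i, hP₀m, hP₀d, hP₀0⟩ := hT P₀ hP₀
  have hTim : ∀ P ∈ T, Irreducible P ∧ P.Monic := fun P hP => ⟨(hT P hP).1, (hT P hP).2.1⟩
  have hT0 : ∀ P ∈ T, P.coeff 0 ≠ 0 := fun P hP => (hT P hP).2.2.2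
  have hnot1 : ¬ P₀ ∣ X - C (1 : F) := by
    intro h1
    have h2 := eq_of_monic_of_associated hP₀m (monic_X_sub_C 1)
      (hP₀i.associated_of_dvd (irreducible_X_sub_C 1) h1)
    exact hLT (h2 ▸ hP₀)
  rcases hcases with ⟨hio, hid⟩ | ⟨hie, hid⟩
  · obtain ⟨R, hR⟩ : ∃ R, R = P₀ * pstar P₀ := ⟨_, rfl⟩
    have hsP₀ : pstar P₀ ∈ T := hTs P₀ hP₀
    have hne : pstar P₀ ≠ P₀ := by
      intro h
      exact (Nat.not_even_iff_odd.mpr hio) ((hpar P₀ hP₀).mp h)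
    have hRm : R.Monic := hR ▸ hP₀m.mul (hT _ hsP₀).2.1
    have hRf : ∀ Q ∈ normalizedFactors R, Q ∈ T :=
      hR ▸ nf_pair_sub T hTim P₀ (pstar P₀) hP₀ hsP₀
    have hR0 : R.coeff 0 ≠ 0 := coeff0_of_nf T hT0 R hRm hRf
    have hR1 : R.eval 1 ≠ 0 := eval1_of_nf T hTim hLT R hRm hRf
    have hRs : pstar R = R := by
      rw [hR, pstar_mul, pstar_pstar P₀ hP₀m hP₀0, mul_comm]
    have hRd : R.natDegree = 2 * i := by
      rw [hR, hP₀m.natDegree_mul (hT _ hsP₀).2.1, hP₀d, (hT _ hsP₀).2.2.1]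
      ring
    obtain ⟨hχm, hχd, hχr, hχnf⟩ := adm_mk (2 * (d - i)) (even_two_mul _) R hRm hR0 hRs hR1
    have hadm : Adm T d ((X - C (1 : F)) ^ (2 * (d - i)) * R) := by
      refine ⟨hχm, by rw [hχd, hRd]; omega, hχr, ?_, ?_⟩
      · intro P hP
        rw [hχnf] at hP
        rcases Multiset.mem_add.mp hP with h | h
        · left
          exact Multiset.eq_of_mem_replicate h
        · right
          exact hRf P h
      · refine ⟨P₀, ?_, hP₀⟩
        rw [hχnf]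
        apply Multiset.mem_add.mpr
        right
        rw [hR, nf_mul' P₀ (pstar P₀) hP₀m (hT _ hsP₀).2.1, normalizedFactors_irreducible hP₀i,
          hP₀m.normalize_eq_self]
        exact Multiset.mem_add.mpr (Or.inl (Multiset.mem_singleton_self P₀))
    obtain ⟨x, hxr, hxns, hxc⟩ := exists_elt p hd r hr hr2 T hLT hTdvd _ hadm
    refine ⟨x.1, P₀, (X - C 1) ^ (2 * (d - i)) * pstar P₀, R, 2 * i,
      (Cfsg.Agent.Lib.Helper40.SympConj.mem_symp_iff _).mp x.2, hxr, hxns, hP₀i, hP₀m, hP₀d,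
      by rw [hxc, hR]; ring, ?_, ?_, by omega, ?_, hR1⟩
    · intro hdvd
      rcases hP₀i.prime.dvd_or_dvd hdvd with h | h
      · exact hnot1 (hP₀i.prime.dvd_of_dvd_pow h)
      · have h2 := eq_of_monic_of_associated hP₀m (hT _ hsP₀).2.1
          (hP₀i.associated_of_dvd (hT _ hsP₀).1 h)
        exact hne h2.symm
    · rw [if_neg (Nat.not_even_iff_odd.mpr hio)]
    · have h2 : 2 * d - 2 * i = 2 * (d - i) := by omega
      rw [h2]
      exact hxc
  · obtain ⟨m, hm⟩ := hie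
    have hie : Even i := ⟨m, hm⟩
    have hsP₀ : pstar P₀ = P₀ := (hpar P₀ hP₀).mpr hie
    have hR1 : P₀.eval 1 ≠ 0 :=
      eval1_of_nf T hTim hLT P₀ hP₀m (nf_single_sub T hTim P₀ hP₀)
    obtain ⟨hχm, hχd, hχr, hχnf⟩ :=
      adm_mk (2 * d - i) ⟨d - m, by omega⟩ P₀ hP₀m hP₀0 hsP₀ hR1
    have hadm : Adm T d ((X - C (1 : F)) ^ (2 * d - i) * P₀) := by
      refine ⟨hχm, by rw [hχd, hP₀d]; omega, hχr, ?_, ?_⟩
      · intro P hP
        rw [hχnf] at hP
        rcases Multiset.mem_add.mp hP with h | h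
        · left
          exact Multiset.eq_of_mem_replicate h
        · right
          exact nf_single_sub T hTim P₀ hP₀ P h
      · refine ⟨P₀, ?_, hP₀⟩
        rw [hχnf, normalizedFactors_irreducible hP₀i, hP₀m.normalize_eq_self]
        exact Multiset.mem_add.mpr (Or.inr (Multiset.mem_singleton_self P₀))
    obtain ⟨x, hxr, hxns, hxc⟩ := exists_elt p hd r hr hr2 T hLT hTdvd _ hadm
    refine ⟨x.1, P₀, (X - C 1) ^ (2 * d - i), P₀, i,
      (Cfsg.Agent.Lib.Helper40.SympConj.mem_symp_iff _).mp x.2, hxr, hxns, hP₀i, hP₀m, hP₀d,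
      by rw [hxc]; ring, ?_, by rw [if_pos hie], hid, hxc, hR1⟩
    intro hdvd'
    exact hnot1 (hP₀i.prime.dvd_of_dvd_pow hdvd')

end Cfsg.Agent.Lib.Helper29.SpFELT
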