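import Mathlib
import Cfsg.Agent.Lib.Helper37.SpTStmt

/-!
# Piece TSP of S5980: the symplectic group in Kronecker coordinates
-/

set_option autoImplicit false

namespace Cfsg.Agent.Lib.Helper29.SpTTSP

open scoped Kronecker MatrixGroups Matrix
open Cfsg.Agent.Lib.Helper37.SpTStmt

universe u

theorem coe_toKron {F : Type u} [Field F] {ι : Type} [Fintype ι] [DecidableEq ι] {a b : ℕ}
    (e : ι ≃ Fin a × Fin b) (P X : GL ι F) :
    ((toKron e P X : GL (Fin a × Fin b) F) : Matrix (Fin a × Fin b) (Fin a × Fin b) F) =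
      Matrix.reindex e e (((P⁻¹ : GL ι F) : Matrix ι ι F) * (X : Matrix ι ι F) *
        (P : Matrix ι ι F)) := rfl

/-- the key intertwining identity -/
theorem mulVec_toKron {F : Type u} [Field F] {ι : Type} [Fintype ι] [DecidableEq ι] {a b : ℕ}
    (e : ι ≃ Fin a × Fin b) (P X : GL ι F) (x : Fin a × Fin b → F) :
    (P : Matrix ι ι F) *ᵥ
      ((((toKron e P X : GL (Fin a × Fin b) F) :
        Matrix (Fin a × Fin b) (Fin a × Fin b) F) *ᵥ x) ∘ e) =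
      (X : Matrix ι ι F) *ᵥ ((P : Matrix ι ι F) *ᵥ (x ∘ e)) := by
  rw [coe_toKron]
  have h1 : ((Matrix.reindex e e (((P⁻¹ : GL ι F) : Matrix ι ι F) * (X : Matrix ι ι F) *
        (P : Matrix ι ι F))) *ᵥ x) ∘ e =
      (((P⁻¹ : GL ι F) : Matrix ι ι F) * (X : Matrix ι ι F) * (P : Matrix ι ι F)) *ᵥ (x ∘ e) := by
    rw [Matrix.reindex_apply, Matrix.submatrix_mulVec_equiv]
    funext k
    simp
  rw [h1, Matrix.mulVec_mulVec, Matrix.mulVec_mulVec, ← mul_assoc, ← mul_assoc,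
    Units.mul_inv, one_mul]

theorem formOfGram_eq {F : Type u} [Field F] {κ : Type} [Fintype κ] [DecidableEq κ]
    (K : Matrix κ κ F) (x y : κ → F) :
    Cfsg.Geo.formOfGram id K x y = Matrix.toBilin' K x y := by
  rw [Matrix.toBilin'_apply]
  rfl

theorem bilin_iff {F : Type u} [Field F] {κ : Type} [Fintype κ] [DecidableEq κ]
    (K Y : Matrix κ κ F) :
    (∀ x y : κ → F, Matrix.toBilin' K (Y *ᵥ x) (Y *ᵥ y) = Matrix.toBilin' K x y) ↔
      Yᵀ * K * Y = K := by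
  constructor
  · intro h
    apply Matrix.toBilin'.injective
    rw [← Matrix.toBilin'_comp]
    apply LinearMap.ext₂
    intro u v
    simpa using h u v
  · intro h u v
    have h1 : Matrix.toBilin' (Yᵀ * K * Y) u v = Matrix.toBilin' K u v := by rw [h]
    rw [← Matrix.toBilin'_comp] at h1
    simpa using h1

theorem main : TSp.{u} := by
  intro F _ d a b e P f₁ f₂ hS X
  obtain ⟨c, hc, hS⟩ := hS
  rw [← bilin_iff]
  have hmem : X ∈ Cfsg.spGL d F ↔ ∀ u v : Fin d ⊕ Fin d → F,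
      Cfsg.sympForm d F ((X : Matrix (Fin d ⊕ Fin d) (Fin d ⊕ Fin d) F) *ᵥ u)
        ((X : Matrix (Fin d ⊕ Fin d) (Fin d ⊕ Fin d) F) *ᵥ v) = Cfsg.sympForm d F u v :=
    Iff.rfl
  rw [hmem]
  constructor
  · intro h x y
    have h1 := h ((P : Matrix (Fin d ⊕ Fin d) (Fin d ⊕ Fin d) F) *ᵥ (x ∘ e))
      ((P : Matrix (Fin d ⊕ Fin d) (Fin d ⊕ Fin d) F) *ᵥ (y ∘ e))
    rw [← mulVec_toKron, ← mulVec_toKron, hS, hS] at h1
    rw [← formOfGram_eq, ← formOfGram_eq]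
    exact mul_left_cancel₀ hc h1
  · intro h u v
    have hu : u = (P : Matrix (Fin d ⊕ Fin d) (Fin d ⊕ Fin d) F) *ᵥ
        (((((P⁻¹ : GL (Fin d ⊕ Fin d) F) : Matrix (Fin d ⊕ Fin d) (Fin d ⊕ Fin d) F) *ᵥ u) ∘
          e.symm) ∘ e) := by
      have : ((((P⁻¹ : GL (Fin d ⊕ Fin d) F) : Matrix (Fin d ⊕ Fin d) (Fin d ⊕ Fin d) F) *ᵥ u) ∘
          e.symm) ∘ e = ((P⁻¹ : GL (Fin d ⊕ Fin d) F) :
            Matrix (Fin d ⊕ Fin d) (Fin d ⊕ Fin d) F) *ᵥ u := by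
        funext k
        simp
      rw [this, Matrix.mulVec_mulVec, Units.mul_inv, Matrix.one_mulVec]
    have hv : v = (P : Matrix (Fin d ⊕ Fin d) (Fin d ⊕ Fin d) F) *ᵥ
        (((((P⁻¹ : GL (Fin d ⊕ Fin d) F) : Matrix (Fin d ⊕ Fin d) (Fin d ⊕ Fin d) F) *ᵥ v) ∘
          e.symm) ∘ e) := by
      have : ((((P⁻¹ : GL (Fin d ⊕ Fin d) F) : Matrix (Fin d ⊕ Fin d) (Fin d ⊕ Fin d) F) *ᵥ v) ∘
          e.symm) ∘ e = ((P⁻¹ : GL (Fin d ⊕ Fin d) F) :
            Matrix (Fin d ⊕ Fin d) (Fin d ⊕ Fin d) F) *ᵥ v := by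
        funext k
        simp
      rw [this, Matrix.mulVec_mulVec, Units.mul_inv, Matrix.one_mulVec]
    rw [hu, hv, ← mulVec_toKron, ← mulVec_toKron, hS, hS, formOfGram_eq, formOfGram_eq, h]

end Cfsg.Agent.Lib.Helper29.SpTTSP
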