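import Mathlib
import Cfsg.Agent.Lib.Helper41.TMStmt
import Cfsg.Agent.Lib.Helper29.HypDIMOBS

/-!
# S5987 piece INVDIM (helper29, third seat; wrapper of `Helper29.HypDIMOBS.free_dvd`)

An invariant subspace without fixed vectors of an element of prime order `r ≠ p` has finrank
divisible by the order of `q` modulo `r`.
-/

set_option autoImplicit false

universe u

namespace Cfsg.Agent.Lib.Helper29.TMINVDIM

open Cfsg.Agent.Lib.Helper41.TMStmt
open Cfsg.Agent.Lib.Helper45.OMiStmt (M Aniso FxM NDegM StabM)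

theorem main : InvDim.{u} := by
  intro F _ _ a₀ b₀ _ p _ _ d r _ hrp x hxr R hRs hRfix
  classical
  obtain ⟨A, hAdef⟩ : ∃ A : (M d → F) →ₗ[F] (M d → F),
      A = Matrix.toLin' (x : Matrix (M d) (M d) F) := ⟨_, rfl⟩
  have hAr : A ^ r = 1 := by
    rw [hAdef, ← Matrix.toLin'_pow, ← Units.val_pow_eq_pow_val, hxr]
    simp [Module.End.one_eq_id]
  apply Cfsg.Agent.Lib.Helper29.HypDIMOBS.free_dvd A r hAr R
  · intro v hv
    rw [hAdef]
    exact hRs (Submodule.mem_map_of_mem hv)
  · intro v hv h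
    have : v ∈ R ⊓ FxM (x : Matrix (M d) (M d) F) := by
      refine Submodule.mem_inf.mpr ⟨hv, ?_⟩
      unfold FxM
      rw [← hAdef, LinearMap.mem_ker, LinearMap.sub_apply, LinearMap.id_apply, sub_eq_zero]
      exact h
    rw [hRfix] at this
    exact (Submodule.mem_bot F).mp this

end Cfsg.Agent.Lib.Helper29.TMINVDIM
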