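import Mathlib
import Cfsg.Agent.Lib.Helper41.TMStmt

/-!
# S5987 piece INVSUB (helper29; minus-form port of my S5973 INVSUB)

An invariant subspace `U` without fixed vectors of an element of prime order `r ≠ p` contains
invariant subspaces of every finrank `i s ≤ finrank U`, `i` the order of `q` modulo `r`.

Route (no semisimplicity needed): the cyclotomic polynomial is squarefree; peeling off coprime
factors gives a vector `v ∈ U ∖ U'` killed by an irreducible factor `P` (of degree `i`); the
cyclic subspace of `v` has finrank `≤ i`, hence `= i`, and meets `U'` trivially.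
-/

set_option autoImplicit false

universe u

open Polynomial

namespace Cfsg.Agent.Lib.Helper29.TMINVSUB

open Cfsg.Agent.Lib.Helper41.TMStmt
open Cfsg.Agent.Lib.Helper45.OMiStmt (M Aniso FxM NDegM StabM)

variable {F : Type u} [Field F] {V : Type*} [AddCommGroup V] [Module F V]

/-- powers preserve an invariant subspace -/
theorem pow_mem' (A : V →ₗ[F] V) (W : Submodule F V) (hW : ∀ w ∈ W, A w ∈ W) (k : ℕ) :
    ∀ w ∈ W, (A ^ k) w ∈ W := by
  induction k with
  | zero => intro w hw; simpa using hw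
  | succ k ih => intro w hw; rw [pow_succ, Module.End.mul_apply]; exact ih _ (hW w hw)

/-- polynomials in `A` preserve an invariant subspace -/
theorem aeval_mem (A : V →ₗ[F] V) (W : Submodule F V) (hW : ∀ w ∈ W, A w ∈ W) (g : F[X]) :
    ∀ w ∈ W, (aeval A g) w ∈ W := by
  intro w hw
  rw [aeval_eq_sum_range, LinearMap.sum_apply]
  refine Submodule.sum_mem _ (fun k _ => ?_)
  rw [LinearMap.smul_apply]
  exact W.smul_mem _ (pow_mem' A W hW k w hw)

theorem aeval_mul_apply (A : V →ₗ[F] V) (f g : F[X]) (w : V) :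
    (aeval A (f * g)) w = (aeval A f) ((aeval A g) w) := by
  rw [map_mul, Module.End.mul_apply]

/-- peeling off coprime factors -/
theorem peel (A : V →ₗ[F] V) (U U' : Submodule F V) (hU : ∀ v ∈ U, A v ∈ U) :
    ∀ (n : ℕ) (g : F[X]), g.natDegree = n → Squarefree g → ∀ w ∈ U, w ∉ U' →
      (aeval A g) w = 0 →
      ∃ v ∈ U, v ∉ U' ∧ ∃ P : F[X], Irreducible P ∧ P ∣ g ∧ (aeval A P) v = 0 := by
  intro n
  induction n using Nat.strong_induction_on with
  | _ n ih =>
    intro g hgn hsq w hwU hwU' hgw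
    have hg0 : g ≠ 0 := hsq.ne_zero
    have hnu : ¬ IsUnit g := by
      intro hu
      obtain ⟨c, hc, rfl⟩ := Polynomial.isUnit_iff.mp hu
      rw [aeval_C, Module.algebraMap_end_apply] at hgw
      rcases smul_eq_zero.mp hgw with h | h
      · exact hc.ne_zero h
      · exact hwU' (h ▸ U'.zero_mem)
    obtain ⟨P, hPirr, R, rfl⟩ := WfDvdMonoid.exists_irreducible_factor hnu hg0
    have hP0 : P ≠ 0 := hPirr.ne_zero
    have hR0 : R ≠ 0 := right_ne_zero_of_mul hg0
    have hsq' := squarefree_mul_iff.mp hsq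
    obtain ⟨a, b, hab⟩ : IsCoprime P R := hsq'.1.isCoprime
    have hw12 : w = (aeval A (a * P)) w + (aeval A (b * R)) w := by
      rw [← LinearMap.add_apply, ← map_add, hab, map_one, Module.End.one_apply]
    by_cases h2 : (aeval A (b * R)) w ∈ U'
    · have h1 : (aeval A (a * P)) w ∉ U' := by
        intro h1
        exact hwU' (hw12 ▸ U'.add_mem h1 h2)
      have hdeg : R.natDegree < n := by
        rw [← hgn, natDegree_mul hP0 hR0]
        have := hPirr.natDegree_pos
        omega
      have hkill : (aeval A R) ((aeval A (a * P)) w) = 0 := by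
        rw [← aeval_mul_apply, show R * (a * P) = a * (P * R) by ring, aeval_mul_apply, hgw,
          map_zero]
      obtain ⟨v, hvU, hvU', P', hP'irr, hP'R, hP'v⟩ :=
        ih R.natDegree hdeg R rfl hsq'.2.2 _ (aeval_mem A U hU _ w hwU) h1 hkill
      exact ⟨v, hvU, hvU', P', hP'irr, hP'R.mul_left P, hP'v⟩
    · refine ⟨_, aeval_mem A U hU _ w hwU, h2, P, hPirr, Dvd.intro R rfl, ?_⟩
      rw [← aeval_mul_apply, show P * (b * R) = b * (P * R) by ring, aeval_mul_apply, hgw,
        map_zero]

/-- the abstract statement -/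
theorem core [FiniteDimensional F V] (A : V →ₗ[F] V) (Φ : F[X]) (hΦ : Squarefree Φ) (i : ℕ)
    (hdeg : ∀ P : F[X], Irreducible P → P ∣ Φ → P.natDegree = i)
    (hdvd : ∀ R : Submodule F V, (∀ v ∈ R, A v ∈ R) → (∀ v ∈ R, A v = v → v = 0) →
      i ∣ Module.finrank F R)
    (U : Submodule F V) (hU : ∀ v ∈ U, A v ∈ U) (hfix : ∀ v ∈ U, A v = v → v = 0)
    (hkill : ∀ v ∈ U, (aeval A Φ) v = 0) :
    ∀ s : ℕ, i * s ≤ Module.finrank F U →
      ∃ U' : Submodule F V, U' ≤ U ∧ (∀ v ∈ U', A v ∈ U') ∧ Module.finrank F U' = i * s := by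
  intro s
  by_cases hi : i = 0
  · intro _
    exact ⟨⊥, bot_le, by simp, by simp [hi]⟩
  induction s with
  | zero =>
    intro _
    exact ⟨⊥, bot_le, by simp, by simp⟩
  | succ s ih =>
    intro hle
    obtain ⟨U', hU'U, hU'inv, hU'rk⟩ := ih (by nlinarith)
    have hne : U' ≠ U := by
      intro h
      rw [h] at hU'rk
      have : i * s < i * (s + 1) := by
        have : 0 < i := Nat.pos_of_ne_zero hi
        nlinarith
      omega
    obtain ⟨w, hwU, hwU'⟩ := SetLike.exists_of_lt (lt_of_le_of_ne hU'U hne)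
    obtain ⟨v, hvU, hvU', P, hPirr, hPΦ, hPv⟩ :=
      peel A U U' hU Φ.natDegree Φ rfl hΦ w hwU hwU' (hkill w hwU)
    have hPdeg : P.natDegree = i := hdeg P hPirr hPΦ
    have hP0 : P ≠ 0 := hPirr.ne_zero
    -- the cyclic subspace
    obtain ⟨φ, hφ⟩ : ∃ φ : F[X] →ₗ[F] V, ∀ g, φ g = (aeval A g) v :=
      ⟨(LinearMap.applyₗ v).comp (aeval A).toLinearMap, fun g => rfl⟩
    obtain ⟨C, hCdef⟩ : ∃ C : Submodule F V, C = LinearMap.range φ := ⟨_, rfl⟩
    have hCmem : ∀ u, u ∈ C ↔ ∃ g : F[X], (aeval A g) v = u := by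
      intro u
      rw [hCdef, LinearMap.mem_range]
      constructor
      · rintro ⟨g, hg⟩; exact ⟨g, by rw [← hφ, hg]⟩
      · rintro ⟨g, hg⟩; exact ⟨g, by rw [hφ, hg]⟩
    have hvC : v ∈ C := (hCmem v).mpr ⟨1, by simp⟩
    have hCinv : ∀ u ∈ C, A u ∈ C := by
      intro u hu
      obtain ⟨g, rfl⟩ := (hCmem u).mp hu
      refine (hCmem _).mpr ⟨X * g, ?_⟩
      rw [aeval_mul_apply, aeval_X]
    have hCU : C ≤ U := by
      intro u hu
      obtain ⟨g, rfl⟩ := (hCmem u).mp hu
      exact aeval_mem A U hU g v hvU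
    have hCle : Module.finrank F C ≤ i := by
      have hsub : C ≤ (degreeLT F i).map φ := by
        intro u hu
        obtain ⟨g, rfl⟩ := (hCmem u).mp hu
        refine Submodule.mem_map.mpr ⟨g % P, ?_, ?_⟩
        · rw [mem_degreeLT]
          have := Polynomial.degree_mod_lt g hP0
          rwa [degree_eq_natDegree hP0, hPdeg] at this
        · rw [hφ]
          have hsplit : g = g % P + (g / P) * P := by
            have := EuclideanDomain.mod_add_div g P
            rw [mul_comm] at this
            exact this.symm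
          conv_rhs => rw [hsplit]
          rw [map_add, LinearMap.add_apply, aeval_mul_apply, hPv, map_zero, add_zero]
      have hfd : Module.finrank F (degreeLT F i) = i := by
        rw [(degreeLTEquiv F i).finrank_eq, Module.finrank_fin_fun]
      have : Module.Finite F (degreeLT F i) := Module.Finite.equiv (degreeLTEquiv F i).symm
      calc Module.finrank F C ≤ Module.finrank F ((degreeLT F i).map φ) :=
            Submodule.finrank_mono hsub
        _ ≤ Module.finrank F (degreeLT F i) := Submodule.finrank_map_le φ _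
        _ = i := hfd
    have hCfix : ∀ u ∈ C, A u = u → u = 0 := fun u hu => hfix u (hCU hu)
    have hv0 : v ≠ 0 := fun h => hvU' (h ▸ U'.zero_mem)
    have hCpos : 0 < Module.finrank F C := by
      rw [Module.finrank_pos_iff_exists_ne_zero]
      exact ⟨⟨v, hvC⟩, fun h => hv0 (congrArg Subtype.val h)⟩
    have hCrk : Module.finrank F C = i := by
      obtain ⟨k, hk⟩ := hdvd C hCinv hCfix
      have : 1 ≤ k := by
        rcases Nat.eq_zero_or_pos k with h | h
        · rw [h, mul_zero] at hk; omega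
        · exact h
      nlinarith
    have hDrk : Module.finrank F ↥(C ⊓ U') = 0 := by
      obtain ⟨k, hk⟩ := hdvd (C ⊓ U')
        (fun u hu => ⟨hCinv u hu.1, hU'inv u hu.2⟩) (fun u hu => hCfix u hu.1)
      have hle' : Module.finrank F ↥(C ⊓ U') ≤ Module.finrank F C :=
        Submodule.finrank_mono inf_le_left
      rcases Nat.eq_zero_or_pos k with h | h
      · rw [hk, h, mul_zero]
      · exfalso
        have heq : Module.finrank F ↥(C ⊓ U') = Module.finrank F C := by
          rw [hCrk] at hle' ⊢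
          nlinarith
        have := Submodule.eq_of_le_of_finrank_eq (inf_le_left : C ⊓ U' ≤ C) heq
        have hv' : v ∈ C ⊓ U' := by rw [this]; exact hvC
        exact hvU' hv'.2
    refine ⟨U' ⊔ C, sup_le hU'U hCU, ?_, ?_⟩
    · intro u hu
      obtain ⟨a, ha, b, hb, rfl⟩ := Submodule.mem_sup.mp hu
      rw [map_add]
      exact Submodule.add_mem_sup (hU'inv a ha) (hCinv b hb)
    · have h := Submodule.finrank_sup_add_finrank_inf_eq U' C
      rw [inf_comm, hDrk, hU'rk, hCrk] at h
      rw [mul_add, mul_one]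
      omega

/-- INVSUB -/
theorem main : InvDim.{u} → InvSub.{u} := by
  intro hInv F _ _ a₀ b₀ hab p _ _ d r _ hrp x hxr U hUs hUfix s hs
  classical
  have hp : p.Prime := Fact.out
  have hr : r.Prime := Fact.out
  obtain ⟨A, hAdef⟩ : ∃ A : (M d → F) →ₗ[F] (M d → F),
      A = Matrix.toLin' (x : Matrix (M d) (M d) F) := ⟨_, rfl⟩
  have hAr : A ^ r = 1 := by
    rw [hAdef, ← Matrix.toLin'_pow, ← Units.val_pow_eq_pow_val, hxr]
    simp [Module.End.one_eq_id]
  have hrF : (r : F) ≠ 0 := by
    rw [Ne, CharP.cast_eq_zero_iff F p r]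
    intro h
    exact hrp ((Nat.prime_dvd_prime_iff_eq hp hr).mp h).symm
  have : NeZero (r : F) := ⟨hrF⟩
  have hstab : ∀ R : Submodule F (M d → F), (∀ v ∈ R, A v ∈ R) ↔
      StabM (x : Matrix (M d) (M d) F) R := by
    intro R
    unfold StabM
    rw [← hAdef]
    constructor
    · intro h u hu
      obtain ⟨w, hw, rfl⟩ := Submodule.mem_map.mp hu
      exact h w hw
    · intro h v hv
      exact h (Submodule.mem_map_of_mem hv)
  have hfx : ∀ v, v ∈ FxM (x : Matrix (M d) (M d) F) ↔ A v = v := by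
    intro v
    unfold FxM
    rw [← hAdef, LinearMap.mem_ker, LinearMap.sub_apply, LinearMap.id_apply, sub_eq_zero]
  have hUinv : ∀ v ∈ U, A v ∈ U := (hstab U).mpr hUs
  have hUfix' : ∀ v ∈ U, A v = v → v = 0 := by
    intro v hv h
    have : v ∈ U ⊓ FxM (x : Matrix (M d) (M d) F) := ⟨hv, (hfx v).mpr h⟩
    rw [hUfix] at this
    exact (Submodule.mem_bot F).mp this
  obtain ⟨f, -, hcard⟩ := FiniteField.card F p
  have hcop : p.Coprime r := (Nat.coprime_primes hp hr).mpr (Ne.symm hrp)
  have hdeg : ∀ P : F[X], Irreducible P → P ∣ cyclotomic r F →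
      P.natDegree = orderOf ((Fintype.card F : ℕ) : ZMod r) := by
    intro P hPirr hPdvd
    rw [natDegree_of_dvd_cyclotomic_of_irreducible hcard hcop hPdvd hPirr, ← orderOf_units,
      ZMod.coe_unitOfCoprime, hcard]
  have hdvd : ∀ R : Submodule F (M d → F), (∀ v ∈ R, A v ∈ R) → (∀ v ∈ R, A v = v → v = 0) →
      orderOf ((Fintype.card F : ℕ) : ZMod r) ∣ Module.finrank F R := by
    intro R hR hRfix
    refine hInv F a₀ b₀ hab p d r hrp x hxr R ((hstab R).mp hR) ?_
    rw [eq_bot_iff]
    intro v hv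
    exact (Submodule.mem_bot F).mpr (hRfix v hv.1 ((hfx v).mp hv.2))
  have hkill : ∀ v ∈ U, (aeval A (cyclotomic r F)) v = 0 := by
    intro v hv
    apply hUfix' _ (aeval_mem A U hUinv _ v hv)
    have h1 : (aeval A ((X - 1) * cyclotomic r F)) v = 0 := by
      rw [mul_comm, cyclotomic_prime_mul_X_sub_one]
      simp [hAr]
    rw [aeval_mul_apply] at h1
    simp only [map_sub, aeval_X, map_one, LinearMap.sub_apply, Module.End.one_apply] at h1
    exact sub_eq_zero.mp h1
  obtain ⟨U', hU'U, hU'inv, hU'rk⟩ :=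
    core A (cyclotomic r F) (separable_cyclotomic r F).squarefree _ hdeg hdvd U hUinv hUfix'
      hkill s hs
  exact ⟨U', hU'U, (hstab U').mp hU'inv, hU'rk⟩

end Cfsg.Agent.Lib.Helper29.TMINVSUB
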