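import Mathlib
import Cfsg.Agent.Lib.Helper41.TMStmt

/-!
# S5987 piece NDARITH (helper29; minus-form port)

Arithmetic: a prime `r` dividing `∏ (q^(d-j) + 1) (q^(d-1-j) - 1)`.
-/

set_option autoImplicit false

namespace Cfsg.Agent.Lib.Helper29.TMNDARITH

open Cfsg.Agent.Lib.Helper41.TMStmt

theorem main : NdArith := by
  intro q d m r hr hq hm hmd hdvd
  have : Fact r.Prime := ⟨hr⟩
  have key : ∃ j, j < m ∧ (((q : ℕ) : ZMod r) ^ (d - 1 - j) = 1 ∨
      ((q : ℕ) : ZMod r) ^ (d - j) = -1) := by
    obtain ⟨j, hj, hjd⟩ := (Prime.dvd_finsetProd_iff (Nat.prime_iff.mp hr) _).mp hdvd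
    refine ⟨j, Finset.mem_range.mp hj, ?_⟩
    rcases (Nat.Prime.dvd_mul hr).mp hjd with h | h
    · right
      have h0 := (ZMod.natCast_eq_zero_iff _ r).mpr h
      push_cast at h0
      exact eq_neg_of_add_eq_zero_left h0
    · left
      have h0 := (ZMod.natCast_eq_zero_iff _ r).mpr h
      have h1 : 1 ≤ q ^ (d - 1 - j) := Nat.one_le_pow _ _ (by omega)
      rw [Nat.cast_sub h1] at h0
      push_cast at h0
      exact sub_eq_zero.mp h0
  obtain ⟨j, hj, hcase⟩ := key
  refine ⟨?_, ?_⟩
  · intro hrq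
    have hq0 : ((q : ℕ) : ZMod r) = 0 := (ZMod.natCast_eq_zero_iff _ r).mpr hrq
    rcases hcase with h | h
    · rw [hq0, zero_pow (by omega)] at h
      exact zero_ne_one h
    · rw [hq0, zero_pow (by omega)] at h
      have : (1 : ZMod r) = 0 := by linear_combination h
      exact one_ne_zero this
  · intro hr2
    refine ⟨j, hj, ?_⟩
    rcases hcase with h | h
    · left
      exact orderOf_dvd_of_pow_eq_one h
    · right
      have hne : (1 : ZMod r) ≠ -1 := by
        intro h1
        have h2 : ((2 : ℕ) : ZMod r) = 0 := by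
          push_cast
          linear_combination h1
        have := (ZMod.natCast_eq_zero_iff 2 r).mp h2
        exact hr2 ((Nat.prime_dvd_prime_iff_eq hr Nat.prime_two).mp this)
      have hnd : ¬ orderOf ((q : ℕ) : ZMod r) ∣ d - j := by
        intro hd
        have := orderOf_dvd_iff_pow_eq_one.mp hd
        rw [h] at this
        exact hne this.symm
      have h2 : orderOf ((q : ℕ) : ZMod r) ∣ 2 * (d - j) := by
        apply orderOf_dvd_of_pow_eq_one
        rw [mul_comm, pow_mul, h]
        ring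
      refine ⟨?_, h2, hnd⟩
      by_contra hodd
      rw [Nat.not_even_iff_odd] at hodd
      exact hnd (Nat.Coprime.dvd_of_dvd_mul_left (Nat.coprime_two_left.mpr hodd).symm h2)

end Cfsg.Agent.Lib.Helper29.TMNDARITH
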