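import Mathlib
import Cfsg.Agent.Lib.Helper41.UnitStmt

/-!
# Piece BADUARITH of S5982
-/

set_option autoImplicit false

namespace Cfsg.Agent.Lib.Helper29.UnitBADUARITH

open Cfsg.Agent.Lib.Helper41.UnitStmt

theorem main : BadUArith := by
  intro q₀ r j _ hr hj h4
  obtain ⟨k, hk⟩ : ∃ k, orderOf ((q₀ : ℕ) : ZMod r) = 2 * (2 * k + 1) :=
    ⟨orderOf ((q₀ : ℕ) : ZMod r) / 4, by omega⟩
  have hne1 : (-1 : ZMod r) ≠ 1 := by
    intro h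
    have h2 : ((2 : ℕ) : ZMod r) = 0 := by
      have h3 : (1 : ZMod r) + 1 = 0 := by
        nth_rewrite 1 [← h]
        ring
      rw [Nat.cast_ofNat, ← one_add_one_eq_two]
      exact h3
    rw [ZMod.natCast_eq_zero_iff] at h2
    exact hr ((Nat.prime_dvd_prime_iff_eq Fact.out Nat.prime_two).mp h2)
  have hs1 : ((q₀ : ℕ) : ZMod r) ^ (2 * k + 1) ≠ 1 :=
    pow_ne_one_of_lt_orderOf (by omega) (by rw [hk]; omega)
  have hs2 : ((q₀ : ℕ) : ZMod r) ^ (2 * k + 1) * ((q₀ : ℕ) : ZMod r) ^ (2 * k + 1) = 1 := by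
    rw [← pow_add, ← two_mul, ← hk]
    exact pow_orderOf_eq_one _
  have hs3 : ((q₀ : ℕ) : ZMod r) ^ (2 * k + 1) = -1 :=
    (mul_self_eq_one_iff.mp hs2).resolve_left hs1
  have h5 : (-((q₀ : ℕ) : ZMod r)) ^ (2 * k + 1) = 1 := by
    rw [neg_pow, hs3, Odd.neg_one_pow ⟨k, rfl⟩]
    ring
  have h6 : ((-((q₀ : ℕ) : ZMod r)) ^ j) ^ (2 * k + 1) = 1 := by
    rw [← pow_mul, mul_comm, pow_mul, h5, one_pow]
  rw [hj, Odd.neg_one_pow ⟨k, rfl⟩] at h6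
  exact hne1 h6

end Cfsg.Agent.Lib.Helper29.UnitBADUARITH
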