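import Mathlib
import Cfsg.Agent.Lib.Helper41.UnitStmt

/-!
# Piece IDXU2 of S5982 (arithmetic)
-/

set_option autoImplicit false

namespace Cfsg.Agent.Lib.Helper29.UnitIDXU2

open Cfsg.Agent.Lib.Helper41.UnitStmt

/-- `∏_{i<n} (Q^n - Q^i) = Q^(n(n-1)/2) ∏_{i<n} (Q^(i+1) - 1)` -/
theorem prod_gl (Q n : ℕ) :
    ∏ i ∈ Finset.range n, (Q ^ n - Q ^ i) =
      Q ^ (n * (n - 1) / 2) * ∏ i ∈ Finset.range n, (Q ^ (i + 1) - 1) := by
  rw [← Finset.prod_range_reflect (fun i => Q ^ n - Q ^ i) n]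
  have h1 : ∀ i ∈ Finset.range n, Q ^ n - Q ^ (n - 1 - i) = Q ^ (n - 1 - i) * (Q ^ (i + 1) - 1) := by
    intro i hi
    rw [Finset.mem_range] at hi
    rw [Nat.mul_sub, mul_one, ← pow_add]
    congr 2
    omega
  rw [Finset.prod_congr rfl h1, Finset.prod_mul_distrib,
    Finset.prod_range_reflect (fun i => Q ^ i) n, Finset.prod_pow_eq_pow_sum,
    Finset.sum_range_id]

/-- the two families of factors -/
def fA (q₀ i : ℕ) : ℕ := if Even i then q₀ ^ (i + 1) + 1 else q₀ ^ (i + 1) - 1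

def fB (q₀ i : ℕ) : ℕ := if Even i then q₀ ^ (i + 1) - 1 else q₀ ^ (i + 1) + 1

theorem fA_mul_fB (q₀ i : ℕ) (hq : 1 ≤ q₀) : fA q₀ i * fB q₀ i = (q₀ ^ 2) ^ (i + 1) - 1 := by
  have h1 : 1 ≤ q₀ ^ (i + 1) := Nat.one_le_pow _ _ hq
  obtain ⟨x, hx⟩ : ∃ x, q₀ ^ (i + 1) = x + 1 := ⟨q₀ ^ (i + 1) - 1, by omega⟩
  have h2 : (q₀ ^ 2) ^ (i + 1) = (x + 1) * (x + 1) := by
    rw [← pow_mul, mul_comm, pow_mul, hx, pow_two]
  unfold fA fB
  split_ifs
  · rw [h2, hx, Nat.add_sub_cancel]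
    have : (x + 1) * (x + 1) = (x + 1 + 1) * x + 1 := by ring
    omega
  · rw [h2, hx, Nat.add_sub_cancel]
    have : (x + 1) * (x + 1) = x * (x + 1 + 1) + 1 := by ring
    omega

theorem fA_pos (q₀ i : ℕ) (hq : 2 ≤ q₀) : 0 < fA q₀ i := by
  have h1 : 2 ≤ q₀ ^ (i + 1) := by
    calc 2 ≤ q₀ := hq
      _ = q₀ ^ 1 := (pow_one _).symm
      _ ≤ q₀ ^ (i + 1) := Nat.pow_le_pow_right (by omega) (by omega)
  unfold fA
  split_ifs <;> omega

theorem main : IdxU2 := by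
  intro n q₀ r hn hq hr hr2 hrq hdvd
  have : Fact r.Prime := ⟨hr⟩
  have hA : (∏ i ∈ Finset.range n, (if Even i then q₀ ^ (i + 1) + 1 else q₀ ^ (i + 1) - 1)) =
      ∏ i ∈ Finset.range n, fA q₀ i := rfl
  rw [hA, Fin.prod_univ_eq_prod_range (fun i => (q₀ ^ 2) ^ n - (q₀ ^ 2) ^ i) n,
    prod_gl (q₀ ^ 2) n] at hdvd
  have hAB : ∏ i ∈ Finset.range n, ((q₀ ^ 2) ^ (i + 1) - 1) =
      (∏ i ∈ Finset.range n, fA q₀ i) * ∏ i ∈ Finset.range n, fB q₀ i := by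
    rw [← Finset.prod_mul_distrib]
    apply Finset.prod_congr rfl
    intro i _
    rw [fA_mul_fB q₀ i (by omega)]
  obtain ⟨m, rfl⟩ : ∃ m, n = m + 1 := ⟨n - 1, by omega⟩
  have hB : ∏ i ∈ Finset.range (m + 1), fB q₀ i =
      (∏ i ∈ Finset.range m, fB q₀ (i + 1)) * (q₀ - 1) := by
    rw [Finset.prod_range_succ']
    congr 1
    unfold fB
    rw [if_pos (by decide), zero_add, pow_one]
  set N := (m + 1) * (m + 1 - 1) / 2 with hN
  have hfact : (q₀ ^ 2) ^ N * ∏ i ∈ Finset.range (m + 1), ((q₀ ^ 2) ^ (i + 1) - 1) =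
      (q₀ ^ N * (∏ i ∈ Finset.range (m + 1), fA q₀ i) * (q₀ - 1)) *
        (q₀ ^ N * ∏ i ∈ Finset.range m, fB q₀ (i + 1)) := by
    rw [hAB, hB, ← pow_mul, mul_comm 2 N, pow_mul, pow_two]
    ring
  rw [hfact] at hdvd
  have hpos : 0 < q₀ ^ N * (∏ i ∈ Finset.range (m + 1), fA q₀ i) * (q₀ - 1) := by
    apply Nat.mul_pos (Nat.mul_pos (Nat.pow_pos (by omega)) ?_) (by omega)
    exact Finset.prod_pos (fun i _ => fA_pos q₀ i hq)
  rw [mul_comm r] at hdvd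
  have hdvd2 : r ∣ q₀ ^ N * ∏ i ∈ Finset.range m, fB q₀ (i + 1) :=
    Nat.dvd_of_mul_dvd_mul_left hpos hdvd
  rcases (Nat.Prime.dvd_mul hr).mp hdvd2 with h1 | h1
  · exact absurd (hr.dvd_of_dvd_pow h1) hrq
  · obtain ⟨i, hi, hri⟩ := (Prime.dvd_finsetProd_iff (Nat.Prime.prime hr) _).mp h1
    rw [Finset.mem_range] at hi
    refine ⟨i + 2, by omega, by omega, ?_⟩
    unfold fB at hri
    have hge : 1 ≤ q₀ ^ (i + 1 + 1) := Nat.one_le_pow _ _ (by omega)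
    split_ifs at hri with hev
    · -- `i + 1` even, so `i + 2` odd, `q₀ ^ (i+2) = 1`
      have h2 : ((q₀ ^ (i + 1 + 1) - 1 : ℕ) : ZMod r) = 0 := (ZMod.natCast_eq_zero_iff _ _).mpr hri
      rw [Nat.cast_sub hge, Nat.cast_pow, Nat.cast_one, sub_eq_zero] at h2
      have hodd : Odd (i + 2) := by
        rw [show i + 2 = i + 1 + 1 by omega]
        exact hev.add_one
      rw [neg_pow, hodd.neg_one_pow, show i + 2 = i + 1 + 1 by omega, h2]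
      ring
    · -- `i + 1` odd, so `i + 2` even, `q₀ ^ (i+2) = -1`
      have h2 : ((q₀ ^ (i + 1 + 1) + 1 : ℕ) : ZMod r) = 0 := (ZMod.natCast_eq_zero_iff _ _).mpr hri
      rw [Nat.cast_add, Nat.cast_pow, Nat.cast_one] at h2
      have hev2 : Even (i + 2) := by
        rw [show i + 2 = i + 1 + 1 by omega]
        exact (Nat.not_even_iff_odd.mp hev).add_one
      rw [neg_pow, hev2.neg_one_pow, one_mul, show i + 2 = i + 1 + 1 by omega]
      exact eq_neg_of_add_eq_zero_left h2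

end Cfsg.Agent.Lib.Helper29.UnitIDXU2
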