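import Mathlib
import Cfsg.Agent.Lib.Helper41.UnitStmt

/-!
# Piece NORMSURJ of S5982
-/

set_option autoImplicit false

namespace Cfsg.Agent.Lib.Helper29.UnitNORMSURJ

open Cfsg.Agent.Lib.Helper41.UnitStmt

universe u

theorem main : NormSurj.{u} := by
  intro F _ _ q₀ hcard a ha
  classical
  have hq2 : 2 ≤ q₀ := by
    have h1 : 1 < Fintype.card F := Fintype.one_lt_card
    rw [hcard] at h1
    by_contra hcon
    have : q₀ = 0 ∨ q₀ = 1 := by omega
    rcases this with rfl | rfl <;> simp at h1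
  have ha0 : a ≠ 0 := by
    rintro rfl
    rw [zero_pow (by omega)] at ha
    exact zero_ne_one ha
  obtain ⟨g, hg⟩ := IsCyclic.exists_monoid_generator (α := Fˣ)
  obtain ⟨t, ht⟩ := hg (Units.mk0 a ha0)
  have hgz : ∀ x : Fˣ, x ∈ Subgroup.zpowers g := by
    intro x
    obtain ⟨m, hm⟩ := hg x
    exact ⟨m, by simpa using hm⟩
  have hord : orderOf g = q₀ ^ 2 - 1 := by
    rw [orderOf_eq_card_of_forall_mem_zpowers hgz, Nat.card_eq_fintype_card, Fintype.card_units,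
      hcard]
  have hu : (Units.mk0 a ha0) ^ (q₀ - 1) = 1 := by
    apply Units.ext
    rw [Units.val_pow_eq_pow_val, Units.val_mk0, ha, Units.val_one]
  have ht' : g ^ t = Units.mk0 a ha0 := ht
  rw [← ht', ← pow_mul] at hu
  have hdvd : orderOf g ∣ t * (q₀ - 1) := orderOf_dvd_of_pow_eq_one hu
  rw [hord] at hdvd
  have hfac : q₀ ^ 2 - 1 = (q₀ + 1) * (q₀ - 1) := by
    obtain ⟨m, rfl⟩ : ∃ m, q₀ = m + 2 := ⟨q₀ - 2, by omega⟩
    have : (m + 2) ^ 2 = (m + 2 + 1) * (m + 2 - 1) + 1 := by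
      rw [show m + 2 - 1 = m + 1 by omega]
      ring
    omega
  rw [hfac] at hdvd
  have hdvd2 : q₀ + 1 ∣ t := Nat.dvd_of_mul_dvd_mul_right (by omega) hdvd
  obtain ⟨s, hs⟩ := hdvd2
  refine ⟨((g ^ s : Fˣ) : F), Units.ne_zero _, ?_⟩
  rw [← Units.val_pow_eq_pow_val, ← pow_mul, mul_comm, ← hs, ht', Units.val_mk0]

end Cfsg.Agent.Lib.Helper29.UnitNORMSURJ
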